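import Mathlib.GroupTheory.OrderOfElement
import Mathlib.Algebra.Group.Subgroup.Basic
import Mathlib.GroupTheory.Subgroup.Centralizer
import Mathlib.Tactic.Group
import Mathlib.Tactic.Ring

/-!
A subgroup containing two commuting factors whose involutions fix a unique coset is everything.
-/

set_option autoImplicit false

namespace Cfsg.Lib.Class.T3

open Subgroup

variable {G : Type*} [Group G]

theorem pow_conj_invol {r a : G} (h : a * r = r⁻¹ * a) (j : ℕ) :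
    r ^ j * a * (r ^ j)⁻¹ = r ^ (2 * j) * a := by
  have h1 : a * r⁻¹ = r * a := by
    calc a * r⁻¹ = r * (r⁻¹ * a) * r⁻¹ := by group
      _ = _ := by rw [← h]; group
  have : a * (r ^ j)⁻¹ = r ^ j * a := by
    simpa only [inv_pow] using ((show SemiconjBy a r⁻¹ r from h1).pow_right j).eq
  rw [mul_assoc, this, two_mul, pow_add, mul_assoc]

/-- Two involutions are conjugate or commute with a further involution. -/
theorem dih [Finite G] {a b : G} (ha : a * a = 1) (hb : b * b = 1) (C : Subgroup G) (haC : a ∈ C)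
    (hbC : b ∈ C) : (∃ x ∈ C, x * a * x⁻¹ = b) ∨ ∃ f ∈ C, f ≠ 1 ∧ f * f = 1 ∧ Commute f a ∧
      Commute f b ∧ (((∃ x ∈ C, f * a = x * a * x⁻¹) ∧ ∃ x ∈ C, f * b = x * b * x⁻¹) ∨
        ∃ x ∈ C, f * a = x * b * x⁻¹) := by
  have ia : a⁻¹ = a := inv_eq_of_mul_eq_one_right ha
  have ib : b⁻¹ = b := inv_eq_of_mul_eq_one_right hb
  have h1 : a * (a * b) = (a * b)⁻¹ * a := by
    rw [mul_inv_rev, ia, ib, ← mul_assoc, ha, mul_assoc, ha, one_mul, mul_one]
  have h2 : b * (a * b) = (a * b)⁻¹ * b := by rw [mul_inv_rev, ia, ib, mul_assoc]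
  have h3 : a * b * b = a := by rw [mul_assoc, hb, mul_one]
  have hC : ∀ j : ℕ, (a * b) ^ j ∈ C := fun j => pow_mem (mul_mem haC hbC) j
  have h0 := pow_orderOf_eq_one (a * b)
  have hp := orderOf_pos (a * b)
  obtain ⟨k, hk | hk⟩ := Nat.even_or_odd' (orderOf (a * b))
  · have h4 : (a * b) ^ k * (a * b) ^ k = 1 := by rw [← pow_add, ← two_mul, ← hk, h0]
    have h5 : ∀ c, c * (a * b) = (a * b)⁻¹ * c → Commute ((a * b) ^ k) c := fun c hc => by
      have := pow_conj_invol hc k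
      rwa [← hk, h0, one_mul, mul_inv_eq_iff_eq_mul] at this
    refine Or.inr ⟨_, hC k, pow_ne_one_of_lt_orderOf (by omega) (by omega), h4, h5 a h1, h5 b h2, ?_⟩
    obtain ⟨j, rfl | rfl⟩ := Nat.even_or_odd' k
    · exact Or.inl ⟨⟨_, hC j, (pow_conj_invol h1 j).symm⟩, _, hC j, (pow_conj_invol h2 j).symm⟩
    · refine Or.inr ⟨_, hC (j + 1), ?_⟩
      rw [pow_conj_invol h2, show 2 * (j + 1) = 2 * j + 1 + 1 by ring, pow_succ _ (2 * j + 1),
        mul_assoc, h3]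
  · refine Or.inl ⟨_, hC k, ?_⟩
    rw [hk, pow_succ] at h0
    rw [pow_conj_invol h1, eq_inv_of_mul_eq_one_left h0, ← h1, ← mul_assoc, ha, one_mul]

/-- The configuration of two commuting factors. -/
structure Two (H L M : Subgroup G) : Prop where
  comm : ∀ a ∈ L, ∀ b ∈ M, a * b = b * a
  disj : ∀ a ∈ L, a ∈ M → a = 1
  leL : L ≤ H
  leM : M ≤ H
  perm : ∀ h ∈ H, ((∀ a ∈ L, h * a * h⁻¹ ∈ L) ∧ ∀ b ∈ M, h * b * h⁻¹ ∈ M) ∨
    ((∀ a ∈ L, h * a * h⁻¹ ∈ M) ∧ ∀ b ∈ M, h * b * h⁻¹ ∈ L)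
  fix : ∀ z ∈ M, z ≠ 1 → z * z = 1 → ∀ g, g * z * g⁻¹ ∈ H → g ∈ H
  four : ∀ z ∈ M, z ≠ 1 → z * z = 1 → ∃ y ∈ M, y ≠ 1 ∧ y ≠ z ∧ y * y = 1 ∧ y * z = z * y

namespace Two

variable {H L M : Subgroup G} (h : Two H L M)
include h

theorem cent {z g : G} (hz : z ∈ M) (h1 : z ≠ 1) (h2 : z * z = 1) (e : g * z = z * g) : g ∈ H :=
  h.fix z hz h1 h2 g (by rw [e, mul_inv_cancel_right]; exact h.leM hz)

theorem conj_eq {a z x : G} (ha : a ∈ L) (hz : z ∈ M) (hx : x ∈ H)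
    (e : x * (a * z) = a * z * x) : x * z * x⁻¹ = z ∨ x * z * x⁻¹ = a := by
  have e1 : x * a * x⁻¹ * (x * z * x⁻¹) = a * z := by
    calc _ = x * (a * z) * x⁻¹ := by group
      _ = _ := by rw [e]; group
  rcases h.perm x hx with ⟨h1, h2⟩ | ⟨h1, h2⟩
  · have : (x * a * x⁻¹)⁻¹ * a = x * z * x⁻¹ * z⁻¹ := by
      rw [inv_mul_eq_iff_eq_mul, ← mul_assoc, e1]; group
    exact Or.inl (mul_inv_eq_one.1 (h.disj _ (this ▸ L.mul_mem (L.inv_mem (h1 a ha)) ha)
      (M.mul_mem (h2 z hz) (M.inv_mem hz))))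
  · have : (x * z * x⁻¹)⁻¹ * a = x * a * x⁻¹ * z⁻¹ := by
      rw [inv_mul_eq_iff_eq_mul, ← mul_assoc, h.comm _ (h2 z hz) _ (h1 a ha), e1]; group
    exact Or.inr (inv_mul_eq_one.1 (h.disj _ (L.mul_mem (L.inv_mem (h2 z hz)) ha)
      (this ▸ M.mul_mem (h1 a ha) (M.inv_mem hz))))

theorem conj_mem {z x : G} (hz : z ∈ M) (hx : x ∈ H) : x * z * x⁻¹ ∈ L ∨ x * z * x⁻¹ ∈ M :=
  (h.perm x hx).symm.imp (·.2 z hz) (·.2 z hz)

omit h in
theorem mul_invol {y z : G} (hy : y * y = 1) (hz : z * z = 1) (e : y * z = z * y) :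
    y * z * (y * z) = 1 := by
  rw [mul_assoc, ← mul_assoc z, ← e, mul_assoc, hz, mul_one, hy]

omit h in
theorem mul_ne_one {y z : G} (hz : z * z = 1) (e : y ≠ z) : y * z ≠ 1 := fun h1 =>
  e ((eq_inv_of_mul_eq_one_left h1).trans (inv_eq_of_mul_eq_one_right hz))

/-- Centralisers of mixed involutions. -/
theorem mixed [Finite G] {a z g : G} (ha : a ∈ L) (ha2 : a * a = 1) (hz : z ∈ M) (h1 : z ≠ 1)
    (h2 : z * z = 1) (e : g * (a * z) = a * z * g) : g ∈ H := by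
  by_cases ha1 : a = 1
  · exact h.cent hz h1 h2 (by simpa [ha1] using e)
  by_contra hg
  obtain ⟨y, hy, y1, y2, y3, y4⟩ := h.four z hz h1 h2
  set C := centralizer ({a * z} : Set G)
  have mC : ∀ {x}, x ∈ C ↔ x * (a * z) = a * z * x := mem_centralizer_singleton_iff
  have key : ∀ x ∈ C, x * z * x⁻¹ ∈ H → x * z * x⁻¹ = z ∨ x * z * x⁻¹ = a := fun x hx hx' =>
    h.conj_eq ha hz (h.fix z hz h1 h2 x hx') (mC.1 hx)
  have gC : g ∈ C := mC.2 e
  have zC : z ∈ C := mC.2 (by rw [← mul_assoc, h.comm a ha z hz])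
  have yC : y ∈ C := mC.2 (by rw [← mul_assoc, ← h.comm a ha y hy, mul_assoc, y4, mul_assoc])
  have ht : g * z * g⁻¹ ∉ H := fun h' => hg (h.fix z hz h1 h2 g h')
  have hyz := h.cent (g := g * z * g⁻¹) (M.mul_mem hy hz) (mul_ne_one h2 y2) (mul_invol y3 h2 y4)
  have tC := C.mul_mem (C.mul_mem gC zC) (C.inv_mem gC)
  rcases dih y3 (b := g * z * g⁻¹) (by simp [mul_assoc, ← mul_assoc z z, h2]) C yC tC with
    ⟨x, hx, e1⟩ | ⟨f, fC, f1, -, f3, f4, ⟨⟨x, -, e1⟩, x', hx', e2⟩ | ⟨x, hx, e1⟩⟩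
  · have e2 : x⁻¹ * g * z * (x⁻¹ * g)⁻¹ = y := by
      calc _ = x⁻¹ * (g * z * g⁻¹) * x := by group
        _ = _ := by rw [← e1]; group
    rcases key _ (C.mul_mem (C.inv_mem hx) gC) (e2 ▸ h.leM hy) with e3 | e3
    · exact y2 (e2.symm.trans e3)
    · exact ha1 (h.disj a ha (e3 ▸ e2 ▸ hy))
  · have e3 : g⁻¹ * x' * g * z * (g⁻¹ * x' * g)⁻¹ = g⁻¹ * f * g * z := by
      calc _ = g⁻¹ * (x' * (g * z * g⁻¹) * x'⁻¹) * g := by group
        _ = _ := by rw [← e2]; group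
    have h3 : g⁻¹ * f * g ∈ H := h.cent hz h1 h2 (by
      calc _ = g⁻¹ * (f * (g * z * g⁻¹)) * g := by group
        _ = _ := by rw [f4.eq]; group)
    rcases key _ (C.mul_mem (C.mul_mem (C.inv_mem gC) hx') gC)
      (e3 ▸ H.mul_mem h3 (h.leM hz)) with e4 | e4
    · refine f1 ?_
      calc f = g * (g⁻¹ * f * g * z) * z⁻¹ * g⁻¹ := by group
        _ = _ := by rw [← e3, e4]; group
    · have e5 : f = a * z := by
        calc f = g * (g⁻¹ * f * g * z * z⁻¹) * g⁻¹ := by group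
          _ = _ := by rw [← e3, e4, inv_eq_of_mul_eq_one_right h2, e]; group
      rw [e5] at e1
      have hH : x ∈ H := h.fix y hy y1 y3 x
        (e1 ▸ H.mul_mem (H.mul_mem (h.leL ha) (h.leM hz)) (h.leM hy))
      rcases h.conj_mem hy hH with h4 | h4
      · rw [← e1, mul_assoc, L.mul_mem_cancel_left ha, ← y4] at h4
        exact mul_ne_one h2 y2 (h.disj _ h4 (M.mul_mem hy hz))
      · rw [← e1, M.mul_mem_cancel_right hy, M.mul_mem_cancel_right hz] at h4
        exact ha1 (h.disj a ha h4)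
  · have e2 : x * g * z * (x * g)⁻¹ = f * y := by rw [e1]; group
    have h3 : f = f * y * y := by rw [mul_assoc, y3, mul_one]
    rcases key _ (C.mul_mem hx gC) (e2 ▸ H.mul_mem (h.cent hy y1 y3 f3) (h.leM hy)) with e3 | e3
    · rw [← e2, e3, ← y4] at h3
      exact ht (hyz (h3 ▸ f4.symm))
    · rw [← e2, e3] at h3
      have : y * z = f * (a * z) := by
        rw [h3, h.comm a ha y hy, mul_assoc y, ← mul_assoc a, ha2, one_mul]
      exact ht (hyz (this ▸ f4.symm.mul_right (mC.1 tC)))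

theorem mem [Finite G] (hM : ∃ z ∈ M, z ≠ 1 ∧ z * z = 1)
    (hL : ∀ t, (∀ a ∈ L, a * a = 1 → a * t = t * a) → t ∈ H) (g : G) : g ∈ H := by
  by_contra hg
  obtain ⟨z, hz, h1, h2⟩ := hM
  have ht : g * z * g⁻¹ ∉ H := fun h' => hg (h.fix z hz h1 h2 g h')
  refine ht (hL _ fun a ha ha2 => ?_)
  by_cases ha1 : a = 1
  · simp [ha1]
  have c2 := mul_invol ha2 h2 (h.comm a ha z hz)
  have hc := H.mul_mem (h.leL ha) (h.leM hz)
  have hcC : ∀ x, x * (a * z) = a * z * x → x ∈ H := fun x => h.mixed ha ha2 hz h1 h2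
  rcases dih c2 (b := g * z * g⁻¹) (by simp [mul_assoc, ← mul_assoc z z, h2]) ⊤ trivial trivial with
    ⟨x, -, e1⟩ | ⟨f, -, f1, f2, f3, f4, ⟨-, x, -, e2⟩ | ⟨x, -, e1⟩⟩
  · have e2 : x⁻¹ * g * z * (x⁻¹ * g)⁻¹ = a * z := by
      calc _ = x⁻¹ * (g * z * g⁻¹) * x := by group
        _ = _ := by rw [← e1]; group
    rcases h.conj_mem hz (h.fix z hz h1 h2 _ (e2 ▸ hc)) with h3 | h3
    · rw [e2, L.mul_mem_cancel_left ha] at h3
      exact (h1 (h.disj z h3 hz)).elim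
    · rw [e2, M.mul_mem_cancel_right hz] at h3
      exact (ha1 (h.disj a ha h3)).elim
  · exfalso
    obtain ⟨f, rfl⟩ : ∃ f', f = g * f' * g⁻¹ := ⟨g⁻¹ * f * g, by group⟩
    replace f1 : f ≠ 1 := fun e => f1 (by simp [e])
    replace f2 : f * f = 1 := by simpa [mul_assoc] using congrArg (g⁻¹ * · * g) f2
    replace f4 : f * z = z * f := by simpa [mul_assoc] using congrArg (g⁻¹ * · * g) f4.eq
    have e3 : g⁻¹ * x * g * z * (g⁻¹ * x * g)⁻¹ = f * z := by
      calc _ = g⁻¹ * (x * (g * z * g⁻¹) * x⁻¹) * g := by group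
        _ = _ := by rw [← e2]; group
    have h3 : f = f * z * z := by rw [mul_assoc, h2, mul_one]
    rcases h.conj_mem hz (h.fix z hz h1 h2 _ (e3 ▸ H.mul_mem (h.cent hz h1 h2 f4) (h.leM hz)))
      with h4 | h4
    swap
    · rw [e3, M.mul_mem_cancel_right hz] at h4
      exact hg (h.fix f h4 f1 f2 g (hcC _ f3))
    rw [e3] at h4
    have y2 := mul_invol f2 h2 f4
    generalize f * z = y at h3 h4 y2
    subst h3
    obtain ⟨c, hc'⟩ : ∃ c, a * z = g * c * g⁻¹ := ⟨g⁻¹ * (a * z) * g, by group⟩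
    have tr : ∀ k, k * c = c * k → g * k * g⁻¹ * (a * z) = a * z * (g * k * g⁻¹) := fun k e => by
      rw [hc']; simpa [mul_assoc] using congrArg (g * · * g⁻¹) e
    have c3 : c * c = 1 := by
      rw [hc'] at c2; simpa [mul_assoc] using congrArg (g⁻¹ * · * g) c2
    have c4 : c * (y * z) = y * z * c := by
      rw [hc'] at f3; simpa [mul_assoc] using congrArg (g⁻¹ * · * g) f3.eq.symm
    have c5 := h.mixed h4 y2 hz h1 h2 c4
    rcases h.conj_eq h4 hz c5 c4 with e4 | e4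
    · exact ht (hcC _ (tr z (mul_inv_eq_iff_eq_mul.1 e4).symm))
    obtain ⟨w, hw, w1, w2, w3, w4⟩ := h.four z hz h1 h2
    have ci : c⁻¹ = c := inv_eq_of_mul_eq_one_right c3
    have hw' : c * w * c⁻¹ ∈ L := by
      rcases h.perm c c5 with h5 | h5
      · have := h.disj y h4 (e4 ▸ h5.2 z hz)
        rw [this, mul_inv_eq_one, mul_eq_left] at e4
        exact (h1 e4).elim
      · exact h5.2 w hw
    have w5 : c * w * c⁻¹ * (c * w * c⁻¹) = 1 := by simp [mul_assoc, ← mul_assoc w w, w3]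
    have c6 : c * (c * w * c⁻¹ * w) = c * w * c⁻¹ * w * c := by
      conv_rhs => rw [h.comm _ hw' w hw]
      rw [ci]
      simp only [← mul_assoc, c3, one_mul]
      rw [mul_assoc _ c c, c3, mul_one]
    have fin : ∀ a' ∈ L, a' * a' = 1 → ∀ z' ∈ M, z' ≠ 1 → z' * z' = 1 →
        c * (a' * z') = a' * z' * c → g * (a' * z') * g⁻¹ * z * (g * (a' * z') * g⁻¹)⁻¹ = a := by
      intro a' h5 h6 z' h7 h8 h9 e
      refine (h.conj_eq ha hz (hcC _ (tr _ e.symm)) (tr _ e.symm)).resolve_left fun e5 => hg ?_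
      refine inv_mem_iff.1 (h.fix z hz h1 h2 _ (h.mixed h5 h6 h7 h8 h9 ?_))
      simpa [mul_assoc] using congrArg (g⁻¹ * · * (g * (a' * z'))) e5.symm
    have k1 := fin y h4 y2 z hz h1 h2 c4
    have k2 := fin _ hw' w5 w hw w1 w3 c6
    have e6 : c * w * c⁻¹ * y * (w * z) = c * w * c⁻¹ * w * (y * z) := by
      rw [mul_assoc _ y, ← mul_assoc y, h.comm y h4 w hw]; group
    have k3 := fin _ (L.mul_mem hw' h4) (mul_invol w5 y2 (by
        rw [← e4]; simpa [mul_assoc] using congrArg (c * · * c⁻¹) w4)) _ (M.mul_mem hw hz)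
      (mul_ne_one h2 w2) (mul_invol w3 h2 w4) (by
        rw [e6]; exact (show Commute c _ from c6).mul_right c4)
    rw [e6] at k3
    have k4 : g * (c * w * c⁻¹ * w) * g⁻¹ * a * (g * (c * w * c⁻¹ * w) * g⁻¹)⁻¹ = a := by
      conv_lhs => rw [← k1]
      rw [← k3]; group
    have : z = a := by
      calc z = (g * (c * w * c⁻¹ * w) * g⁻¹)⁻¹ * a * (g * (c * w * c⁻¹ * w) * g⁻¹) := by
            rw [← k2]; group
        _ = a := by conv_lhs => rw [← k4]
                    group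
    exact h1 (h.disj z (this ▸ ha) hz)
  · have e2 : x * g * z * (x * g)⁻¹ = f * (a * z) := by rw [e1]; group
    have h3 : f = f * (a * z) * (a * z) := by rw [mul_assoc, c2, mul_one]
    have y2 := mul_invol f2 c2 f3
    have y3 : f * (a * z) * (a * z) = a * z * (f * (a * z)) := by
      rw [← mul_assoc (a * z) f, ← f3.eq]
    have h4 := h.conj_mem hz (h.fix z hz h1 h2 _ (e2 ▸ H.mul_mem (hcC f f3) hc))
    rw [e2] at h4
    generalize f * (a * z) = y at h3 h4 y2 y3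
    subst h3
    rcases h4 with h4 | h4
    · have : y * a = a * y := by
        rw [mul_assoc, ← h.comm y h4 z hz, ← mul_assoc, ← mul_assoc] at y3
        exact mul_right_cancel y3
      exact (ht (h.mixed (L.mul_mem h4 ha) (mul_invol y2 ha2 this) hz h1 h2
        (by simpa only [mul_assoc] using f4.eq.symm))).elim
    · have e3 : y * (a * z) = a * (y * z) := by rw [← mul_assoc, ← h.comm a ha y h4, mul_assoc]
      by_cases e4 : y = z
      · rw [e3, e4, h2, mul_one] at f4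
        exact f4
      · have : y * z = z * y := by
          rw [e3, mul_assoc] at y3
          exact mul_left_cancel y3
        exact (ht (h.mixed ha ha2 (M.mul_mem h4 hz) (mul_ne_one h2 e4) (mul_invol y2 h2 this)
          (e3 ▸ f4.eq.symm))).elim

end Two

end Cfsg.Lib.Class.T3
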