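import Cfsg.Agent.Class.Tens3.Ker
import Cfsg.Agent.Class.Tens3.Dih
import Mathlib.LinearAlgebra.Transvection.Basic

/-!
Overgroups of `O ⊗ O₃` in `Ω`: the global theorem.
-/

set_option autoImplicit false

namespace Cfsg.Lib.Class.Tn

open Module Form AO QuadraticMap Orth
open scoped commutatorElement

variable {F U W V : Type*} [Field F] [AddCommGroup U] [Module F U] [AddCommGroup W] [Module F W]
  [AddCommGroup V] [Module F V] {T : U →ₗ[F] W →ₗ[F] V} {f : U →ₗ[F] U →ₗ[F] F}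
  {h : W →ₗ[F] W →ₗ[F] F} {Q : QuadraticForm F V} {X : Subgroup (V ≃ₗ[F] V)}

/-- `g` interchanges the two factors. -/
def IsSwap (T : U →ₗ[F] W →ₗ[F] V) (g : V ≃ₗ[F] V) : Prop :=
  ∃ (a : W ≃ₗ[F] U) (b : U ≃ₗ[F] W), ∀ x y, g (T x y) = T (a y) (b x)

/-- The automorphisms preserving the decomposition up to the order of the factors. -/
def swapG (T : U →ₗ[F] W →ₗ[F] V) : Subgroup (V ≃ₗ[F] V) where
  carrier := {g | g ∈ tensG T ∨ IsSwap T g}
  one_mem' := Or.inl (one_mem _)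
  mul_mem' := by
    rintro g k (⟨a, b, e⟩ | ⟨a, b, e⟩) (⟨a', b', e'⟩ | ⟨a', b', e'⟩)
    · exact Or.inl ⟨a' ≪≫ₗ a, b' ≪≫ₗ b, fun x y => by simp [e, e']⟩
    · exact Or.inr ⟨a' ≪≫ₗ a, b' ≪≫ₗ b, fun x y => by simp [e, e']⟩
    · exact Or.inr ⟨b' ≪≫ₗ a, a' ≪≫ₗ b, fun x y => by simp [e, e']⟩
    · exact Or.inl ⟨b' ≪≫ₗ a, a' ≪≫ₗ b, fun x y => by simp [e, e']⟩
  inv_mem' := by
    rintro g (hg | ⟨a, b, e⟩)
    · exact Or.inl (inv_mem hg)
    · exact Or.inr ⟨b.symm, a.symm, fun x y => g.injective (by simp [e])⟩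

namespace Hm

variable [FiniteDimensional F W] (hh : Hm h 1)
include hh

theorem invol3 (h2 : (2 : F) ≠ 0) (hW : finrank F W = 3) {b : W ≃ₗ[F] W} (hb : b ∈ isomGroup h)
    (hb2 : ∀ y, b (b y) = y) (hd : LinearEquiv.det b = 1) (h1 : b ≠ 1) :
    ∃ v, h v v ≠ 0 ∧ ∀ y, b y = (2 / h v v * h v y) • v - y := by
  have h3 := finrank_ker_add h2 (b := (b : End F W)) hb2
  have h4 : LinearMap.det (b : End F W) = 1 := by rw [← LinearEquiv.coe_det, hd, Units.val_one]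
  have h5 : (-1 : F) ≠ 1 := fun h0 => h2 (by linear_combination -h0)
  obtain h6 | h6 | h6 | h6 : finrank F (LinearMap.ker ((b : End F W) + 1)) = 0 ∨
    finrank F (LinearMap.ker ((b : End F W) + 1)) = 1 ∨
    finrank F (LinearMap.ker ((b : End F W) - 1)) = 1 ∨
    finrank F (LinearMap.ker ((b : End F W) + 1)) = finrank F W := by omega
  · have h7 := Submodule.finrank_eq_zero.1 h6
    refine (h1 (LinearEquiv.ext fun y => sub_eq_zero.1 ((Submodule.mem_bot F).1 ?_))).elim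
    rw [← h7]
    simp [hb2]
  · obtain ⟨⟨v, hv⟩, hv0, h7⟩ := finrank_eq_one_iff'.1 h6
    obtain ⟨η, hη⟩ := Module.Projective.exists_dual_eq_one F (x := v) (by simpa using hv0)
    have h8 : (b : End F W) = LinearMap.transvection (η ∘ₗ ((b : End F W) - 1)) v :=
      LinearMap.ext fun y => by
        obtain ⟨s, hs⟩ := h7 ⟨b y - y, by simp [hb2]⟩
        have h9 : b y - y = s • v := (congrArg Subtype.val hs).symm
        simp only [LinearMap.transvection.apply, LinearMap.comp_apply, LinearMap.sub_apply,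
          LinearEquiv.coe_coe, End.one_apply, h9, map_smul, hη, smul_eq_mul, mul_one]
        rw [← h9]; abel
    rw [h8, LinearMap.transvection.det] at h4
    simp [show b v = -v from eq_neg_of_add_eq_zero_left hv, hη] at h4
    exact (h2 (by linear_combination -h4)).elim
  · obtain ⟨⟨v, hv⟩, hv0, h7⟩ := finrank_eq_one_iff'.1 h6
    have h8 : ∀ y, ∃ s : F, b y = s • v - y ∧ s * h v v = 2 * h v y := fun y => by
      obtain ⟨s, hs⟩ := h7 ⟨b y + y, by simp [hb2, add_comm]⟩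
      have h9 : s • v = b y + y := congrArg Subtype.val hs
      have h10 := iso hb v y
      rw [show b v = v from sub_eq_zero.1 hv] at h10
      exact ⟨s, by rw [h9]; abel, by simpa [h10, two_mul] using congrArg (h v) h9⟩
    have h9 : h v v ≠ 0 := fun h0 => hv0 (Subtype.ext (hh.sep v fun y => by
      obtain ⟨s, -, hs⟩ := h8 y
      simpa [h0, h2] using hs))
    refine ⟨v, h9, fun y => ?_⟩
    obtain ⟨s, h10, h11⟩ := h8 y
    rw [h10, div_mul_eq_mul_div, ← h11, mul_div_cancel_right₀ _ h9]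
  · have h7 := LinearMap.ker_eq_top.1 (Submodule.eq_top_of_finrank_eq h6)
    rw [show (b : End F W) = (-1 : F) • 1 by simpa using eq_neg_of_add_eq_zero_left h7,
      LinearMap.det_smul, hW, map_one] at h4
    exact (h5 (by linear_combination h4)).elim

theorem exists_invol (h2 : (2 : F) ≠ 0) {e u : W} (he : h e e ≠ 0) (hu : h u u = h e e)
    (heu : h e u = 0) : ∃ r ∈ isomGroup h, ∃ s ∈ isomGroup h, ⁅r, s⁆ * ⁅r, s⁆ = 1 ∧
      ∀ y, ⁅r, s⁆ y = y - (2 / h e e * h u y) • u - (2 / h e e * h e y) • e := by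
  have h1 : h (e - u) (e - u) = 2 * h e e := by simp [hu, heu, hh.comm heu]; ring
  obtain ⟨r, hr, e1, e2⟩ := hh.exists_refl he
  obtain ⟨s, hs, e3, e4⟩ := hh.exists_refl (w := e - u) (by rw [h1]; exact mul_ne_zero h2 he)
  rw [h1] at e3
  have h3 : ∀ y, ⁅r, s⁆ y = y - (2 / h e e * h u y) • u - (2 / h e e * h e y) • e := fun y => by
    simp only [commutatorElement_def, LinearEquiv.mul_apply, LinearEquiv.coe_inv, e2, e4]
    simp only [e1, e3, map_sub, map_smul, LinearMap.sub_apply, hu, heu, hh.comm heu, smul_eq_mul]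
    match_scalars <;> field_simp <;> ring
  refine ⟨r, hr, s, hs, LinearEquiv.ext fun y => ?_, h3⟩
  simp only [LinearEquiv.mul_apply, h3, map_sub, map_smul, hu, heu, hh.comm heu, smul_eq_mul,
    LinearEquiv.coe_one, id]
  match_scalars <;> field_simp <;> ring

end Hm

theorem det_commutator (r s : W ≃ₗ[F] W) : LinearEquiv.det ⁅r, s⁆ = 1 := by
  rw [map_commutatorElement, commutatorElement_eq_one_iff_mul_comm, mul_comm]

namespace C3

variable [FiniteDimensional F U] [FiniteDimensional F W] [Finite F] (c : C3 Q T f h X)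
include c

omit [FiniteDimensional F U] [FiniteDimensional F W] [Finite F] in
theorem isom_right {b : W ≃ₗ[F] W} (hb : c.hT.mpE 1 b ∈ X) : b ∈ isomGroup h := fun y y' => by
  have : Nontrivial U := Module.nontrivial_of_finrank_pos (R := F) (by have := c.hU; omega)
  obtain ⟨x, x', hx⟩ := c.hf.exists_ne_pair
  simpa only [IsTens.mpE_apply, c.tens, LinearEquiv.coe_one, id, hx, one_mul] using
    iso (O_le_isom (Om_le (c.le hb))) (T x y) (T x' y')

theorem not_swap {z g : V ≃ₗ[F] V} (hz : z ∈ X) (hz2 : z * z = 1) {v : W} (hv : h v v ≠ 0)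
    (e : ∀ t, z t = t ↔ ∃ x, t = T x v) (hg : g ∈ X) : ¬ IsSwap T (g * z * g⁻¹) := by
  rintro ⟨α, β, hs⟩
  have := c.hT.finiteDimensional
  obtain ⟨p, hp⟩ := CharP.exists F
  have hpp : Fact p.Prime := ⟨CharP.char_is_prime F p⟩
  have : Nontrivial U := Module.nontrivial_of_finrank_pos (R := F) (by have := c.hU; omega)
  obtain ⟨x₀, x₁, hx⟩ := c.hf.exists_ne_pair
  have hz' := mul_mem (mul_mem hg hz) (inv_mem hg)
  have hz2' : g * z * g⁻¹ * (g * z * g⁻¹) = 1 := by simp [mul_assoc, ← mul_assoc z z, hz2]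
  have h0 : ∀ t, (∀ x, c.c x t = 0) → t = 0 := fun t ht => c.hm.sep' t fun s =>
    c.hT.ind (P := fun s => polarBilin Q s t = 0) (by simp)
      (fun a b ha hb => by rw [map_add, LinearMap.add_apply, ha, hb, add_zero])
      (fun x y => by rw [c.left, ht, map_zero]) s
  have h1 : ∀ x, f x x = 0 → ∀ r ∈ Rad f (Submodule.span F {x}), ∃ a,
      c.hT.mpE r (β.symm ≪≫ₗ r ≪≫ₗ β) = g * c.hT.mpE a 1 * g⁻¹ := fun x hx r hr => by
    have h2 : g * z * g⁻¹ * c.hT.mpE r 1 * (g * z * g⁻¹)⁻¹ = c.hT.mpE 1 (β.symm ≪≫ₗ r ≪≫ₗ β) := by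
      rw [mul_inv_eq_iff_eq_mul]
      exact c.hT.extE fun x y => by
        simp only [LinearEquiv.mul_apply (g * z * g⁻¹), LinearEquiv.mul_apply (c.hT.mpE _ _), hs,
          IsTens.mpE_apply]
        simp
    have h3 : c.hT.mpE r (β.symm ≪≫ₗ r ≪≫ₗ β) =
        c.hT.mpE r 1 * c.hT.mpE 1 (β.symm ≪≫ₗ r ≪≫ₗ β) := by simp [← c.hT.mpE_mul]
    have h4 : Commute (c.hT.mpE r 1) (c.hT.mpE 1 (β.symm ≪≫ₗ r ≪≫ₗ β)) := by
      simp [Commute, SemiconjBy, ← c.hT.mpE_mul]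
    have h5 := c.ctx.radL_mem hx hr
    have h6 := pow_char_of_Rad p c.two (c.mpE_mem_Rad hr)
    rw [h3, ← h2]
    rw [← h2] at h4
    generalize c.hT.mpE r 1 = A at h4 h5 h6
    have h7 : g⁻¹ * (A * (g * z * g⁻¹ * A * (g * z * g⁻¹)⁻¹)) * g ∈ X :=
      mul_mem (mul_mem (inv_mem hg) (mul_mem h5 (mul_mem (mul_mem hz' h5) (inv_mem hz')))) hg
    have h8 : z * (g⁻¹ * (A * (g * z * g⁻¹ * A * (g * z * g⁻¹)⁻¹)) * g) =
        g⁻¹ * (A * (g * z * g⁻¹ * A * (g * z * g⁻¹)⁻¹)) * g * z := by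
      calc _ = g⁻¹ * (g * z * g⁻¹ * A * (g * z * g⁻¹)⁻¹ * ((g * z * g⁻¹ * (g * z * g⁻¹)) * A *
          (g * z * g⁻¹ * (g * z * g⁻¹))⁻¹)) * g * z := by group
        _ = _ := by rw [hz2', one_mul, inv_one, mul_one, ← h4.eq]
    have h9 : ∀ x, ∃ y, (g⁻¹ * (A * (g * z * g⁻¹ * A * (g * z * g⁻¹)⁻¹)) * g) (T x v) = T y v :=
      fun x => (e _).1 (by
        rw [← LinearEquiv.mul_apply, h8, LinearEquiv.mul_apply _ z, (e _).2 ⟨x, rfl⟩])
    obtain ⟨a, ha⟩ := c.eq_mpE_one p (c.transport c rfl h7 hv h9) (c.ctx.le h7) (by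
      rw [← inv_inv g, inv_inv g⁻¹, conj_pow, inv_inv g, h4.mul_pow, conj_pow, h6]; simp) hv h9
    exact ⟨a, by rw [← ha]; group⟩
  let Θ : V →ₗ[F] U →ₗ[F] W := c.hT.lift (LinearMap.smulRightₗ ∘ₗ f.flip)
  have hΘ : ∀ t x, Θ t x = c.c x t := fun t x =>
    c.hT.ind (P := fun t => Θ t x = c.c x t) (by simp) (fun a b ha hb => by simp [ha, hb])
      (fun y w => by simp [Θ]) t
  obtain ⟨ω, hω⟩ := (LinearMap.injective_iff_surjective_of_finrank_eq_finrank (f := Θ) (by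
    rw [c.hT.finrank_eq, Module.finrank_linearMap])).1 ((injective_iff_map_eq_zero _).2
      fun t ht => h0 t fun x => by rw [← hΘ, ht]; rfl) β
  have h2 : ∀ x, c.c x ω = β x := fun x => by rw [← hΘ, hω]; rfl
  obtain ⟨η, hη⟩ : ∃ η, c.hT.cR η (g⁻¹ ω) ≠ 0 := by
    by_contra! hc
    have h3 : ω = 0 := (g⁻¹).map_eq_zero_iff.1 (c.hT.eq_zero_of_cR hc)
    simpa [h3, show x₁ ≠ 0 from fun h0 => by simp [h0] at hx] using (h2 x₁).symm
  have h3 : ∀ w x, β.symm (c.c x (g (T (c.hT.cR η (g⁻¹ ω)) w))) =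
      f x₀ (β.symm (c.c x₁ (g (T (c.hT.cR η (g⁻¹ ω)) w)))) • x := fun w x => by
    have := c.hf.smulRight_mem c.two c.hU (Subalgebra.centralizer F
      {(β.symm : W →ₗ[F] U) ∘ₗ Θ (g (T (c.hT.cR η (g⁻¹ ω)) w))}) (fun x hx r hr => by
        obtain ⟨a, ha⟩ := h1 x hx r hr
        have h4 : c.hT.mpE r (β.symm ≪≫ₗ r ≪≫ₗ β) ω = ω := sub_eq_zero.1 (h0 _ fun y => by
          obtain ⟨y, rfl⟩ := r.surjective y
          simp [c.c_mpE hr.1, h2])
        have h5 : a (c.hT.cR η (g⁻¹ ω)) = c.hT.cR η (g⁻¹ ω) := by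
          have h6 := congrArg (fun t => c.hT.cR η (g⁻¹ t)) h4
          simpa [ha, c.hT.mpE_apply', c.hT.cR_mp] using h6
        rintro _ rfl
        refine LinearMap.ext fun y => ?_
        have h6 := c.c_mpE hr.1 (β.symm ≪≫ₗ r ≪≫ₗ β) y (g (T (c.hT.cR η (g⁻¹ ω)) w))
        simp only [ha, LinearEquiv.mul_apply, LinearEquiv.coe_inv g, LinearEquiv.symm_apply_apply,
          IsTens.mpE_apply] at h6
        simp only [LinearEquiv.coe_inv g] at h5
        simpa [hΘ, h5] using congrArg β.symm h6) (f x₀) x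
    simpa [hΘ, hx] using LinearMap.congr_fun (this _ rfl) x₁
  obtain ⟨w, hw, hw0⟩ := Submodule.exists_mem_ne_zero_of_ne_bot (LinearMap.ker_ne_bot_of_finrank_lt
    (f := f x₀ ∘ₗ (β.symm : W →ₗ[F] U) ∘ₗ c.c x₁ ∘ₗ (g : End F V) ∘ₗ T (c.hT.cR η (g⁻¹ ω)))
    (by simp [c.hW]))
  refine c.hT.ne_zero hη hw0 (g.map_eq_zero_iff.1 (h0 _ fun x => β.symm.map_eq_zero_iff.1 ?_))
  rw [h3]
  exact smul_eq_zero_of_left hw x

theorem mem_of_conj {b : W ≃ₗ[F] W} (hz : c.hT.mpE 1 b ∈ X) {v : W} (hv : h v v ≠ 0)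
    (e : ∀ y, b y = (2 / h v v * h v y) • v - y) {g : V ≃ₗ[F] V} (hg : g ∈ X)
    (hz2 : c.hT.mpE 1 b * c.hT.mpE 1 b = 1) (hs : g * c.hT.mpE 1 b * g⁻¹ ∈ swapG T) :
    g ∈ swapG T := by
  have := c.hT.finiteDimensional
  have hv0 : v ≠ 0 := fun h0 => by simp [h0] at hv
  have h1 : LinearMap.ker ((b : End F W) - 1) = Submodule.span F {v} := by
    refine le_antisymm (fun y hy => Submodule.mem_span_singleton.2 ⟨h v y / h v v, ?_⟩) ?_
    · have h2 := (e y).symm.trans (sub_eq_zero.1 hy)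
      refine smul_right_injective W c.two ?_
      simp only [smul_smul, ← mul_div_assoc, ← div_mul_eq_mul_div]
      linear_combination (norm := module) h2
    · simp [Submodule.span_le, e, hv, two_smul]
  have h2 : LinearMap.ker ((c.hT.mpE 1 b : End F V) - 1) =
      Submodule.map₂ T ⊤ (Submodule.span F {v}) := by
    rw [← h1, ← c.hT.ker_mp_one, c.hT.mp_sub_right, c.hT.mp_one]; rfl
  have h3 : ∀ t, c.hT.mpE 1 b t = t ↔ ∃ x, t = T x v := fun t => by
    rw [← sub_eq_zero]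
    refine (SetLike.ext_iff.1 h2 t).trans ?_
    simp [c.hT.mem_map₂_span_right, eq_comm]
  generalize c.hT.mpE 1 b = z at *
  have h4 : ∀ x, (g * z * g⁻¹) (g (T x v)) = g (T x v) := fun x => by simp [(h3 _).2 ⟨x, rfl⟩]
  rcases c.hT.fix_invol c.two c.hU (c.le_four.trans (by omega)) c.hW
    (hs.resolve_right (c.not_swap hz hz2 hv h3 hg)) (by simp [mul_assoc, ← mul_assoc z z, hz2]) (by
      rw [show LinearMap.ker ((g * z * g⁻¹ : V ≃ₗ[F] V) - 1 : End F V) =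
        (LinearMap.ker ((z : End F V) - 1)).map (g : End F V) from Submodule.ext fun t => by
          obtain ⟨t, rfl⟩ := g.surjective t
          simp [sub_eq_zero], LinearEquiv.finrank_map_eq, h2, c.hT.finrank_map₂, finrank_top,
        finrank_span_singleton hv0, mul_one]) with ⟨v', h5⟩ | ⟨h5, u, h6⟩
  · exact Or.inl (c.transport c rfl hg hv fun x => h5 _ (h4 x))
  · obtain ⟨a, b, h7⟩ := c.transport (c.flip h5) (h5.trans c.hW.symm) hg hv fun x => h6 _ (h4 x)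
    exact Or.inr ⟨b, a, h7⟩

theorem mem_of_comm {t : V ≃ₗ[F] V} (ht : t ∈ X) (H : ∀ a, LinearEquiv.det a = 1 →
    c.hT.mpE a 1 ∈ X → a * a = 1 → c.hT.mpE a 1 * t = t * c.hT.mpE a 1) : t ∈ tensG T := by
  obtain ⟨x, -, hx0, hx⟩ := exists_iso_mem f (S := ⊤) (by rw [finrank_top]; exact c.hU)
  obtain ⟨x', hx', hxx⟩ := c.hf.exists_partner hx0 hx
  have hxx' := c.hf.swap_one hxx
  obtain ⟨u, h1, h2, hu⟩ : ∃ u, f x u = 0 ∧ f x' u = 0 ∧ f u u ≠ 0 := by
    obtain ⟨u, h1, hu⟩ := c.hf.exists_aniso c.two [x] (by have := c.hU; simp; omega)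
    have h2 := h1 x (by simp)
    exact ⟨u - f x' u • x, by simp [h2, hx], by simp [hxx'], by simpa [h2, hx, c.hf.comm h2]⟩
  have h3 : f (x + (f u u / 2) • x') (x + (f u u / 2) • x') = f u u := by
    have := c.two
    simp [hx, hx', hxx, hxx']
    field_simp
    ring
  obtain ⟨r, hr, s, hs, h4, h5⟩ := c.hf.exists_invol c.two (by rwa [h3]) h3.symm (by simp [h1, h2])
  rw [h3] at h5
  obtain ⟨φ, hφ⟩ := c.hf.exists_rootHom c.two hx h1
  have h6 : c.hT.mpE ⁅r, s⁆ 1 ∈ X := by simpa using c.mpE_comm_mem hr hs (one_mem _) (one_mem _)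
  have h7 : ∀ a : F, (φ (.ofAdd a) : End F U) * (⁅r, s⁆ : U ≃ₗ[F] U) * φ (.ofAdd (-a)) ∈
      c.hT.centL t := fun a => by
    have h8 := c.ctx.radL_mem hx (hφ a).1
    have := c.hT.coe_mem_centL (H (φ (.ofAdd a) * ⁅r, s⁆ * (φ (.ofAdd a))⁻¹)
      (by rw [map_mul, map_mul, det_commutator, map_inv, mul_one, mul_inv_cancel]) (by
        convert mul_mem (mul_mem h8 h6) (inv_mem h8)
        simp [c.hT.mpE_inv, ← c.hT.mpE_mul]) (by
          simp [mul_assoc, ← mul_assoc ⁅r, s⁆ ⁅r, s⁆, h4]))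
    rwa [← map_inv, ← ofAdd_neg] at this
  obtain ⟨a, ha0, ha⟩ := exists_sq_ne_one (F := F) (c.big.trans' (by omega))
  have h8 : (f x).smulRight x * (⁅r, s⁆ : U ≃ₗ[F] U) * (f x).smulRight x =
      -(f u u / 2) • (f x).smulRight x := LinearMap.ext fun y => by
    have := c.two
    simp only [End.mul_apply, LinearMap.smulRight_apply, map_smul, LinearEquiv.coe_coe, h5,
      map_sub, map_add, hx, hxx, hxx', h1, c.hf.comm h1, LinearMap.add_apply, LinearMap.smul_apply,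
      smul_eq_mul]
    match_scalars
    field_simp
    ring
  have h9 := fun a => sub_mem (add_mem (h7 a) (h7 (-a))) ((c.hT.centL t).smul_mem (h7 0) 2)
  have h10 := sub_mem ((c.hT.centL t).smul_mem (h9 1) (a ^ 2)) (h9 a)
  refine c.mem_of_centL ht hx0 hx ?_
  have h11 : 2 * (a ^ 2 * (a ^ 2 - 1)) * (f u u / 2) ^ 3 ≠ 0 := by
    simp [c.two, ha0, sub_eq_zero, ha, hu]
  rw [← inv_smul_smul₀ h11 ((f x).smulRight x)]
  refine Subalgebra.smul_mem _ ?_ _
  convert h10 using 1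
  simp only [(hφ _).2]
  generalize (f x).smulRight u - (f u).smulRight x = E
  generalize (f x).smulRight x = N at h8
  simp only [mul_add, add_mul, mul_sub, sub_mul, smul_mul_assoc, mul_smul_comm, mul_one, one_mul,
    h8]
  module

/-- The global theorem. -/
theorem le_swapG : X ≤ swapG T := by
  have := c.hT.finiteDimensional
  have : Finite V := Module.finite_of_finite F
  have : Finite (V ≃ₗ[F] V) := Finite.of_injective _ (DFunLike.coe_injective (F := V ≃ₗ[F] V))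
  have : Nontrivial U := Module.nontrivial_of_finrank_pos (R := F) (by have := c.hU; omega)
  obtain ⟨x₀, hx₀⟩ := exists_ne (0 : U)
  set L := (LinearEquiv.det.ker.map (c.hT.mpHom.comp (MonoidHom.inl _ _))).subgroupOf X
  set M := (LinearEquiv.det.ker.map (c.hT.mpHom.comp (MonoidHom.inr _ _))).subgroupOf X
  have mL : ∀ {g : X}, g ∈ L ↔ ∃ a, LinearEquiv.det a = 1 ∧ c.hT.mpE a 1 = g := Iff.rfl
  have mM : ∀ {g : X}, g ∈ M ↔ ∃ a, LinearEquiv.det a = 1 ∧ c.hT.mpE 1 a = g := Iff.rfl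
  have h0 : ∀ z ∈ M, z ≠ 1 → z * z = 1 → ∃ b v, c.hT.mpE 1 b = z ∧ h v v ≠ 0 ∧
      ∀ y, b y = (2 / h v v * h v y) • v - y := by
    rintro z ⟨b, hb, e⟩ h1 h2
    change c.hT.mpE 1 b = z at e
    exact ⟨b, (c.hh.invol3 c.two c.hW (c.isom_right (e ▸ z.2)) (fun y => c.hT.injective hx₀ (by
      simpa [← e] using congrArg (·.1 (T x₀ y)) h2)) hb
      fun h3 => h1 (Subtype.ext (by simp [← e, h3]))).imp fun _ h3 => ⟨e, h3⟩⟩
  have h1 : ∀ v, h v v ≠ 0 → ∃ b v', ∃ hb : c.hT.mpE 1 b ∈ X, (⟨_, hb⟩ : X) ∈ M ∧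
      (⟨_, hb⟩ : X) * ⟨_, hb⟩ = 1 ∧ (⟨_, hb⟩ : X) ≠ 1 ∧ h v v' = 0 ∧
      ∀ y, b y = y - (2 / h v v * h v' y) • v' - (2 / h v v * h v y) • v := fun v hv => by
    obtain ⟨v', h1, h2⟩ := c.hh.exists_perp_norm c.two c.hW.ge hv
    obtain ⟨r, hr, s, hs, h3, h4⟩ := c.hh.exists_invol c.two hv h2 h1
    refine ⟨_, v', by simpa using c.mpE_comm_mem (one_mem _) (one_mem _) hr hs,
      mM.2 ⟨_, det_commutator r s, rfl⟩, Subtype.ext (by simp [← c.hT.mpE_mul, h3]),
      fun h5 => ?_, h1, h4⟩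
    have h7 : ⁅r, s⁆ v = v := c.hT.injective hx₀ (by simpa using congrArg (·.1 (T x₀ v)) h5)
    simpa [h4, c.hh.comm h1, hv, c.two, sub_sub] using congrArg (h v) h7
  have H : T3.Two ((swapG T).subgroupOf X) L M := by
    refine ⟨?_, ?_, ?_, ?_, ?_, fun z hz h2 h3 g hg => ?_, fun z hz h2 h3 => ?_⟩
    · intro g hg k hk
      obtain ⟨a, -, e⟩ := mL.1 hg
      obtain ⟨b, -, e'⟩ := mM.1 hk
      exact Subtype.ext (by simp [← e, ← e', ← c.hT.mpE_mul])
    · intro g hg hg'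
      obtain ⟨a, -, e⟩ := mL.1 hg
      obtain ⟨b, hb, e'⟩ := mM.1 hg'
      obtain ⟨ξ, hξ⟩ := Module.Projective.exists_dual_eq_one F hx₀
      have h2 : ∀ y, b y = ξ (a x₀) • y := fun y => by
        simpa [hξ] using congrArg (fun k => c.hT.cL ξ (k (T x₀ y))) (e'.trans e.symm)
      have h3 := congrArg Units.val hb
      rw [LinearEquiv.coe_det, show (b : End F W) = ξ (a x₀) • 1 from LinearMap.ext h2,
        LinearMap.det_smul, c.hW, map_one] at h3
      obtain ⟨y, y', hy⟩ := @Hm.exists_ne_pair _ _ _ _ _ _ _ _ c.hh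
        (Module.nontrivial_of_finrank_pos (R := F) (by rw [c.hW]; omega))
      have h4 := iso (c.isom_right (e' ▸ g.2)) y y'
      simp only [h2, map_smul, LinearMap.smul_apply, hy, smul_eq_mul, Units.val_one] at h3 h4
      have h5 : ξ (a x₀) = 1 := by linear_combination h3 - ξ (a x₀) * h4
      exact Subtype.ext (by
        rw [← e', show b = 1 from LinearEquiv.ext fun y => by simp [h2, h5]]; simp)
    · rintro _ ⟨a, -, e⟩
      exact Or.inl (e ▸ c.hT.mpE_mem _ _)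
    · rintro _ ⟨a, -, e⟩
      exact Or.inl (e ▸ c.hT.mpE_mem _ _)
    · rintro g (⟨a, b, e⟩ | ⟨a, b, e⟩)
      · refine Or.inl ⟨fun k hk => ?_, fun k hk => ?_⟩
        · obtain ⟨a', h2, e'⟩ := mL.1 hk
          refine mL.2 ⟨_, (LinearEquiv.det_conj a' a).trans h2, eq_mul_inv_of_mul_eq ?_⟩
          exact c.hT.extE fun x y => by simp [← e', show ∀ x y, g.1 (T x y) = _ from e]
        · obtain ⟨b', h2, e'⟩ := mM.1 hk
          refine mM.2 ⟨_, (LinearEquiv.det_conj b' b).trans h2, eq_mul_inv_of_mul_eq ?_⟩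
          exact c.hT.extE fun x y => by simp [← e', show ∀ x y, g.1 (T x y) = _ from e]
      · refine Or.inr ⟨fun k hk => ?_, fun k hk => ?_⟩
        · obtain ⟨a', h2, e'⟩ := mL.1 hk
          refine mM.2 ⟨_, (LinearEquiv.det_conj a' b).trans h2, eq_mul_inv_of_mul_eq ?_⟩
          exact c.hT.extE fun x y => by simp [← e', show ∀ x y, g.1 (T x y) = _ from e]
        · obtain ⟨b', h2, e'⟩ := mM.1 hk
          refine mL.2 ⟨_, (LinearEquiv.det_conj b' a).trans h2, eq_mul_inv_of_mul_eq ?_⟩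
          exact c.hT.extE fun x y => by simp [← e', show ∀ x y, g.1 (T x y) = _ from e]
    · obtain ⟨b, v, e, hv, e'⟩ := h0 z hz h2 h3
      exact c.mem_of_conj (e ▸ z.2) hv e' g.2 (e ▸ congrArg Subtype.val h3) (e ▸ hg)
    · obtain ⟨b, v, e, hv, e'⟩ := h0 z hz h2 h3
      obtain ⟨b', v', hb, h4, h5, h6, h7, e''⟩ := h1 v hv
      refine ⟨_, h4, h6, fun h8 => ?_, h5, Subtype.ext (c.hT.extE fun x y => ?_)⟩
      · have h9 : b' v = b v := c.hT.injective hx₀ (by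
          simpa [← e] using congrArg (·.1 (T x₀ v)) h8)
        have h10 := congrArg (h v) h9
        simp [e', e'', c.hh.comm h7, hv] at h10
        exact mul_ne_zero c.two hv (by linear_combination -h10)
      · simp only [Subgroup.coe_mul, ← e, LinearEquiv.mul_apply, IsTens.mpE_apply]
        congr 1
        simp only [e', e'', map_sub, map_smul, h7, c.hh.comm h7, smul_eq_mul]
        module
  obtain ⟨v, -, hv⟩ := c.hh.exists_aniso c.two [] (by simp [c.hW])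
  obtain ⟨b, -, hb, h2, h3, h4, -⟩ := h1 v hv
  exact fun g hg => H.mem ⟨_, h2, h4, h3⟩ (fun t ht => Or.inl (c.mem_of_comm t.2 fun a h5 h6 h7 =>
    congrArg Subtype.val (ht ⟨_, h6⟩ (mL.2 ⟨a, h5, rfl⟩)
      (Subtype.ext (by simp [← c.hT.mpE_mul, h7]))))) ⟨g, hg⟩

end C3

end Cfsg.Lib.Class.Tn
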