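import Cfsg.Agent.Class.Tens3.Lin
import Cfsg.Agent.Solv.HallHigmanCore
import Cfsg.Agent.Solv.CoprimeGen
import Cfsg.Agent.Solv.CardModEq

/-!
Overgroups of `O ⊗ O₃`: the stabiliser of `U ⊗ v` for an anisotropic vector `v`.
-/

set_option autoImplicit false

namespace Cfsg.Lib.Class.Tn

open Module Form AO QuadraticMap Orth

variable {F U W V : Type*} [Field F] [AddCommGroup U] [Module F U] [AddCommGroup W] [Module F W]
  [AddCommGroup V] [Module F V] {T : U →ₗ[F] W →ₗ[F] V} {f : U →ₗ[F] U →ₗ[F] F}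
  {h : W →ₗ[F] W →ₗ[F] F} {Q : QuadraticForm F V} {X : Subgroup (V ≃ₗ[F] V)}

theorem exists_sq_ne_one [Finite F] (h4 : 4 ≤ Nat.card F) : ∃ t : F, t ≠ 0 ∧ t ^ 2 ≠ 1 := by
  classical
  by_contra! hc
  have := Nat.card_le_card_of_surjective (![0, 1, -1] : Fin 3 → F) fun t => by
    by_cases h0 : t = 0
    · exact ⟨0, h0.symm⟩
    rcases mul_self_eq_one_iff.1 ((pow_two t).symm.trans (hc t h0)) with h1 | h1
    exacts [⟨1, h1.symm⟩, ⟨2, h1.symm⟩]
  simp at this
  omega

theorem Hm.exists_rootHom (hf : Hm f 1) (h2 : (2 : F) ≠ 0) {x u : U} (hx : f x x = 0)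
    (hu : f x u = 0) : ∃ φ : Multiplicative F →* (U ≃ₗ[F] U), ∀ t : F,
      φ (.ofAdd t) ∈ Rad f (Submodule.span F {x}) ∧ (φ (.ofAdd t) : End F U) = 1 +
        t • ((f x).smulRight u - (f u).smulRight x) - t ^ 2 • (f u u / 2) • (f x).smulRight x := by
  have h1 : ∀ t : F, f x (t • u) = 0 := fun t => by simp [hu]
  refine ⟨MonoidHom.mk' (fun t => hf.eich hx (h1 t.toAdd) (t.toAdd ^ 2 * (f u u / 2)))
    fun s t => LinearEquiv.ext fun y => ?_, fun t => ⟨hf.eich_mem_Rad hx (h1 t) ?_,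
      LinearMap.ext fun y => ?_⟩⟩
  · simp only [LinearEquiv.mul_apply, Hm.eich_apply, toAdd_mul, map_add, map_sub, map_smul, hx, hu,
      hf.comm hu, LinearMap.smul_apply, smul_eq_mul]
    match_scalars <;> field_simp <;> ring
  · simp only [toAdd_ofAdd, RingHom.id_apply, map_smul, LinearMap.smul_apply, smul_eq_mul]
    field_simp
    ring
  · simp only [MonoidHom.mk'_apply, LinearEquiv.coe_coe, Hm.eich_apply, toAdd_ofAdd, map_smul,
      LinearMap.smul_apply, LinearMap.sub_apply, LinearMap.add_apply, LinearMap.smulRight_apply,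
      End.one_apply, smul_eq_mul]
    module

/-- The endomorphisms `m` such that `m ⊗ 1` commutes with `k`. -/
noncomputable def IsTens.centL (hT : IsTens T) (k : V ≃ₗ[F] V) : Subalgebra F (End F U) :=
  (Subalgebra.centralizer F {(k : End F V)}).comap hT.inL

theorem IsTens.mem_centL (hT : IsTens T) {k : V ≃ₗ[F] V} {m : End F U} :
    m ∈ hT.centL k ↔ ∀ v, k (hT.mp m 1 v) = hT.mp m 1 (k v) := by
  simp only [centL, Subalgebra.mem_comap, Subalgebra.mem_centralizer_iff, Set.mem_singleton_iff,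
    forall_eq]
  exact LinearMap.ext_iff

theorem IsTens.coe_mem_centL (hT : IsTens T) {k : V ≃ₗ[F] V} {a : U ≃ₗ[F] U}
    (e : hT.mpE a 1 * k = k * hT.mpE a 1) : (a : End F U) ∈ hT.centL k :=
  hT.mem_centL.2 fun v => (congrArg (· v) e).symm

/-- A proper overgroup in `Ω` of the stabiliser of a tensor decomposition with a first factor of
Witt index one and a second factor of dimension three. -/
structure C3 (Q : QuadraticForm F V) (T : U →ₗ[F] W →ₗ[F] V) (f : U →ₗ[F] U →ₗ[F] F)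
    (h : W →ₗ[F] W →ₗ[F] F) (X : Subgroup (V ≃ₗ[F] V)) : Prop extends OCtx Q T f h 1 X where
  two : (2 : F) ≠ 0
  hU : 3 ≤ finrank F U
  idx : IdxOne f
  hW : finrank F W = 3
  big : 5 ≤ Nat.card F
  nle : ¬ Om Q ≤ X

namespace C3

variable [FiniteDimensional F U] [FiniteDimensional F W] [Finite F] (c : C3 Q T f h X)
include c

omit [FiniteDimensional F U] [Finite F] in
theorem flip (hU : finrank F U = 3) : C3 Q T.flip h f X :=
  ⟨c.toOCtx.flip, c.two, c.hW.ge, c.hh.idxOne_of_three c.hW, hU, c.big, c.nle⟩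

omit [FiniteDimensional F W] in
theorem le_four : finrank F U ≤ 4 := by
  by_contra! hc
  obtain ⟨x, hx0, hx, -⟩ := exists_iso_orth f hc 0 0
  obtain ⟨x', hxx⟩ := c.hf.exists_eq_one hx0
  obtain ⟨p, h1, h2, h3, h4⟩ := exists_iso_orth f hc x x'
  obtain ⟨a, ha⟩ := c.idx x p hx0 hx h2 h3
  exact c.hf.ne_smul_of hxx h1 h4 a ha

theorem mem_of_centL {k : V ≃ₗ[F] V} (hk : k ∈ X) {x : U} (hx0 : x ≠ 0) (hx : f x x = 0)
    (e : (f x).smulRight x ∈ c.hT.centL k) : k ∈ tensG T := by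
  obtain ⟨x', hxx⟩ := c.hf.exists_eq_one hx0
  refine c.mem_tensG_of_stab3 c.two c.hU c.idx c.hW (exists_sq_ne_one (c.big.trans' (by omega)))
    c.nle hx0 hx hk fun w => ⟨c.c x (k (T x' w)), ?_⟩
  simpa [c.hT.mp_smulRight, hxx, TF.c] using (c.hT.mem_centL.1 e (T x' w)).symm

omit [FiniteDimensional F U] [Finite F] in
theorem eq_mpE_one (p : ℕ) [Fact p.Prime] [CharP F p] {k : V ≃ₗ[F] V} (hk : k ∈ tensG T)
    (hk' : k ∈ isomGroup (polarBilin Q)) (hp : k ^ p = 1) {v : W} (hv : h v v ≠ 0)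
    (e : ∀ x, ∃ y, k (T x v) = T y v) : ∃ a, k = c.hT.mpE a 1 := by
  have : Nontrivial U := Module.nontrivial_of_finrank_pos (R := F) (by have := c.hU; omega)
  have hv0 : v ≠ 0 := fun h0 => by simp [h0] at hv
  obtain ⟨x, x', hx⟩ := c.hf.exists_ne_pair
  have hx0 : x ≠ 0 := fun h0 => by simp [h0] at hx
  obtain ⟨a, b, rfl, hb⟩ : ∃ a b, k = c.hT.mpE a b ∧ b v = v := by
    obtain ⟨a, b, rfl⟩ := c.hT.mem_tensG.1 hk
    obtain ⟨y, hy⟩ := e (a.symm x')
    have h1 : b v = f x y • v := by simpa [hx] using congrArg (c.c x) hy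
    have h2 : f x y ≠ 0 := fun h0 => hv0 (b.map_eq_zero_iff.1 (by rw [h1, h0, zero_smul]))
    exact ⟨a.trans (.smulOfNeZero F U _ h2), b.trans (.smulOfNeZero F W _ (inv_ne_zero h2)),
      c.hT.extE fun x y => by simp [smul_smul, h2], by simp [h1, smul_smul, h2]⟩
  have h1 : ∀ y y', f (a x) (a x') * h (b y) (b y') = h y y' := fun y y' => by
    simpa only [IsTens.mpE_apply, c.tens, hx, one_mul] using iso hk' (T x y) (T x' y')
  have h2 : f (a x) (a x') = 1 := mul_right_cancel₀ hv (by simpa [hb] using h1 v v)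
  have h3 : ∀ y z, T ((a ^ p) y) ((b ^ p) z) = T y z := fun y z => by
    simpa using congrArg (· (T y z)) ((map_pow c.hT.mpHom (a, b) p).trans hp)
  have h4 : (b ^ p) v = v := (MulAction.stabilizer (W ≃ₗ[F] W) v).pow_mem hb p
  have h5 : (a ^ p) x = x := c.hT.injective' hv0 (by simpa [h4] using h3 x v)
  exact ⟨a, by rw [c.hh.eq_one_of_pow p c.two c.hW hv (fun y y' => by simpa [h2] using h1 y y') hb
    (LinearEquiv.ext fun y => c.hT.injective hx0 (by simpa [h5] using h3 x y))]⟩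

/-- The pointwise stabiliser of `U ⊗ v` preserves the decomposition. -/
theorem mem_of_fix {v : W} (hv : h v v ≠ 0) {k : V ≃ₗ[F] V} (hk : k ∈ X)
    (e : ∀ x, k (T x v) = T x v) : k ∈ tensG T := by
  have := c.hT.finiteDimensional
  have : Finite V := Module.finite_of_finite F
  have : Finite (V ≃ₗ[F] V) := Finite.of_injective _ (DFunLike.coe_injective (F := V ≃ₗ[F] V))
  obtain ⟨p, hp⟩ := CharP.exists F
  have hpp : Fact p.Prime := ⟨CharP.char_is_prime F p⟩
  have hv0 : v ≠ 0 := fun h0 => by simp [h0] at hv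
  set K := X ⊓ ⨅ x, MulAction.stabilizer (V ≃ₗ[F] V) (T x v)
  have mK : ∀ {k}, k ∈ K ↔ k ∈ X ∧ ∀ x, k (T x v) = T x v := by
    simp [K, Subgroup.mem_iInf, LinearEquiv.smul_def]
  obtain ⟨x, -, hx0, hx⟩ := exists_iso_mem f (S := ⊤) (by rw [finrank_top]; exact c.hU)
  obtain ⟨u, h1, hu⟩ := c.hf.exists_aniso c.two [x] (by have := c.hU; simp; omega)
  have h2 := h1 x (by simp)
  obtain ⟨φ, hφ⟩ := c.hf.exists_rootHom c.two hx h2
  set ψ := c.hT.mpHom.comp ((MonoidHom.inl _ _).comp φ)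
  have eψ : ∀ t, ψ t = c.hT.mpE (φ t) 1 := fun _ => rfl
  have hR : ∀ t, ψ t ∈ Rad (polarBilin Q) (JL T x) := fun t => c.mpE_mem_Rad (hφ t.toAdd).1
  have hX : ∀ t, ψ t ∈ X := fun t => c.ctx.radL_mem hx (hφ t.toAdd).1
  have h3 : ∀ t : F, (φ (.ofAdd t) - 1 : End F U) * (φ (.ofAdd t) - 1) =
      -(t ^ 2 * f u u) • (f x).smulRight x := fun t => LinearMap.ext fun y => by
    simp only [(hφ t).2, End.mul_apply, map_smul, LinearMap.smul_apply, LinearMap.sub_apply,
      LinearMap.add_apply, LinearMap.smulRight_apply, End.one_apply, smul_eq_mul, map_add, map_sub,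
      hx, h2, c.hf.comm h2]
    module
  have h4 : ∀ t, t ≠ 1 → K ⊓ Subgroup.centralizer {ψ t} ≤ tensG T := fun t ht k hk => by
    have h5 := (c.hT.centL k).sub_mem (c.hT.coe_mem_centL (a := φ t)
      (Subgroup.mem_centralizer_singleton_iff.1 hk.2).symm) (one_mem _)
    have h6 := (c.hT.centL k).smul_mem (mul_mem h5 h5) (-(t.toAdd ^ 2 * f u u))⁻¹
    rw [show t = .ofAdd t.toAdd from rfl, h3, toAdd_ofAdd, inv_smul_smul₀ (by simpa [hu] using ht)]
      at h6
    exact c.mem_of_centL (mK.1 hk.1).1 hx0 hx h6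
  have h5 : ψ.range ≤ Subgroup.normalizer (K : Set (V ≃ₗ[F] V)) :=
    Subgroup.le_normalizer_iff.2 (by
      rintro _ ⟨t, rfl⟩ k hk
      refine mK.2 ⟨mul_mem (mul_mem (hX t) (mK.1 hk).1) (inv_mem (hX t)), fun y => ?_⟩
      simp [eψ, c.hT.mpE_inv, (mK.1 hk).2])
  have h6 : IsPGroup p ψ.range := by
    rintro ⟨_, t, rfl⟩
    exact ⟨1, Subtype.ext (by simpa using pow_char_of_Rad p c.two (hR t))⟩
  have h7 : (Nat.card K).Coprime p := by
    refine ((Nat.Prime.coprime_iff_not_dvd hpp.out).2 fun hd => ?_).symm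
    have h8 := (Solv.card_modEq_card_inf_centralizer h6 h5).dvd_iff dvd_rfl |>.1 hd
    obtain ⟨⟨k, hk, hk'⟩, h9⟩ := exists_prime_orderOf_dvd_card' p h8
    replace h9 : orderOf k = p := (Subgroup.orderOf_coe _).trans h9
    obtain ⟨a, rfl⟩ := c.eq_mpE_one p (h4 (.ofAdd 1) (by simp) ⟨hk,
      Subgroup.centralizer_le (by simp) hk'⟩) (c.ctx.le (mK.1 hk).1) (h9 ▸ pow_orderOf_eq_one k) hv
      fun x => ⟨x, (mK.1 hk).2 x⟩
    rw [show a = 1 from LinearEquiv.ext fun y => c.hT.injective' hv0 (by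
      simpa using (mK.1 hk).2 y)] at h9
    simp only [IsTens.mpE_one, orderOf_one] at h9
    exact hpp.out.one_lt.ne h9
  suffices K ≤ tensG T from this (mK.2 ⟨hk, e⟩)
  by_cases h8 : p = 3
  · refine Solv.Coprime.le_of_forall_centralizer_singleton (A := ψ.range) (fun h9 => ?_) h5 ?_ ?_
    · have h10 : Function.Injective ψ := (injective_iff_map_eq_one _).2 fun t ht => by
        obtain ⟨x', hxx⟩ := c.hf.exists_eq_one hx0
        have h11 : φ t = 1 := LinearEquiv.ext fun y => c.hT.injective' hv0 (by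
          simpa [eψ] using congrArg (· (T y v)) ht)
        have := LinearMap.congr_fun (h3 t.toAdd) x'
        simpa [h11, hxx, hu, hx0, ← End.one_eq_id] using this
      have h11 := Nat.card_congr (MonoidHom.ofInjective h10).toEquiv
      have h12 := Nat.le_of_dvd hpp.out.pos (Monoid.exponent_dvd_of_forall_pow_eq_one
        (G := ψ.range) (by
          rintro ⟨_, t, rfl⟩
          exact Subtype.ext (by simpa using pow_char_of_Rad p c.two (hR t))))
      rw [IsCyclic.exponent_eq_card, ← h11, Nat.card_congr Multiplicative.toAdd] at h12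
      have := c.big
      omega
    · obtain ⟨n, hn⟩ := h6.exists_card_eq
      exact hn ▸ h7.symm.pow_left n
    · rintro _ ⟨t, rfl⟩ ht
      exact h4 t fun h0 => ht (by rw [h0, map_one])
  · have h9 : 5 ≤ p := by
      refine hpp.out.five_le_of_ne_two_of_ne_three (fun h0 => c.two ?_) h8
      simpa [h0] using CharP.cast_eq_zero F p
    refine (le_inf le_rfl (by_contra fun h10 => ?_)).trans (h4 (.ofAdd 1) (by simp))
    rcases Solv.HH.thmB_of_not_le_centralizer p LinearEquiv.automorphismGroup.toLinearMapMonoidHom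
      h7 (fun g _ hg => LinearEquiv.toLinearMap_injective hg) (h5 ⟨.ofAdd 1, rfl⟩) (k := 0)
      (by simpa using pow_char_of_Rad p c.two (hR _)) (by simpa using h10)
      (Rad_pow_three (hR _)) with h11 | ⟨n, -, -, h11, h12, -, -, -, -, h13⟩
    · simp at h11; omega
    · obtain rfl : n = 1 := by omega
      simp at h13; omega

/-- An element mapping `U ⊗ v` into `U' ⊗ v'` transports the decompositions. -/
theorem transport {U' W' : Type*} [AddCommGroup U'] [Module F U'] [AddCommGroup W'] [Module F W']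
    [FiniteDimensional F U'] [FiniteDimensional F W'] {T' : U' →ₗ[F] W' →ₗ[F] V}
    {f' : U' →ₗ[F] U' →ₗ[F] F} {h' : W' →ₗ[F] W' →ₗ[F] F} (c' : C3 Q T' f' h' X)
    (hd : finrank F U = finrank F U') {g : V ≃ₗ[F] V} (hg : g ∈ X) {v : W} (hv : h v v ≠ 0)
    {v' : W'} (e : ∀ x, ∃ y, g (T x v) = T' y v') :
    ∃ (a : U ≃ₗ[F] U') (b : W ≃ₗ[F] W'), ∀ x y, g (T x y) = T' (a x) (b y) := by
  obtain ⟨p, hp⟩ := CharP.exists F
  have hpp : Fact p.Prime := ⟨CharP.char_is_prime F p⟩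
  have : Nontrivial U := Module.nontrivial_of_finrank_pos (R := F) (by have := c.hU; omega)
  have hv0 : v ≠ 0 := fun h0 => by simp [h0] at hv
  obtain ⟨x₀, x₁, hx⟩ := c.hf.exists_ne_pair
  have hx0 : x₁ ≠ 0 := fun h0 => by simp [h0] at hx
  have hv0' : v' ≠ 0 := fun h0 => by simpa [h0, c.hT.eq_zero_iff, hx0, hv0] using e x₁
  obtain ⟨η, hη⟩ := Module.Projective.exists_dual_eq_one F hv0'
  obtain ⟨a, ha⟩ : ∃ a : U ≃ₗ[F] U', ∀ x, g (T x v) = T' (a x) v' := by
    have h1 : ∀ x, g (T x v) = T' ((c'.hT.cR η ∘ₗ (g : End F V) ∘ₗ T.flip v) x) v' := fun x => by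
      obtain ⟨y, hy⟩ := e x
      simp [hy, hη]
    refine ⟨LinearMap.linearEquivOfInjective (c'.hT.cR η ∘ₗ (g : End F V) ∘ₗ T.flip v)
      ((injective_iff_map_eq_zero _).2 fun x hx => ?_) hd, h1⟩
    have := h1 x
    rw [hx] at this
    simpa [c.hT.eq_zero_iff, hv0] using this
  have h1 : ∀ x y, f' (a x) (a y) * h' v' v' = f x y * h v v := fun x y => by
    rw [← c.tens, ← c'.tens, ← ha, ← ha, iso (c.ctx.le hg)]
  have hv' : h' v' v' ≠ 0 := right_ne_zero_of_mul (by rw [h1 x₀ x₁, hx, one_mul]; exact hv)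
  have h2 := c.hf.smulRight_mem c.two c.hU (AlgHom.equalizer
    ((g.conjAlgEquiv F).toAlgHom.comp c.hT.inL) (c'.hT.inL.comp (a.conjAlgEquiv F).toAlgHom))
    (fun x hx r hr => by
      obtain ⟨h2, h3, h4⟩ := mem_Rad_span.1 hr
      have h5 : a.symm ≪≫ₗ r ≪≫ₗ a ∈ Rad f' (Submodule.span F {a x}) := by
        refine mem_Rad_span.2 ⟨fun y y' => mul_right_cancel₀ hv' ?_, by simp [h3], fun y hy => ?_⟩
        · simp [h1, iso h2, ← h1]
        · obtain ⟨y, rfl⟩ := a.surjective y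
          obtain ⟨s, hs⟩ := h4 y (by simpa [hy, hv] using h1 x y)
          exact ⟨s, by simp [hs]⟩
      have h6 := mul_mem (mul_mem hg (c.ctx.radL_mem hx hr)) (inv_mem hg)
      have h7 : ∀ y, (g * c.hT.mpE r 1 * g⁻¹) (T' y v') = T' (a (r (a.symm y))) v' := fun y => by
        obtain ⟨y, rfl⟩ := a.surjective y
        simp [← ha]
      have h8 := c'.mem_of_fix hv' (mul_mem (inv_mem (c'.ctx.radL_mem (by
        simpa [hx, hv'] using h1 x x) h5)) h6) fun y => by
          rw [LinearEquiv.mul_apply, h7, c'.hT.mpE_inv]; simp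
      rw [mul_mem_cancel_left (inv_mem (c'.hT.mpE_mem _ _))] at h8
      obtain ⟨a', h9⟩ := c'.eq_mpE_one p h8 (c.ctx.le h6) (by
        rw [conj_pow, pow_char_of_Rad p c.two (c.mpE_mem_Rad hr)]; simp) hv' fun y => ⟨_, h7 y⟩
      refine c'.hT.ext fun y w => ?_
      have h10 : a' y = a (r (a.symm y)) := c'.hT.injective' hv0' (by simpa [h9] using h7 y)
      simpa [h10, c.hT.mpE_apply', End.one_eq_id] using congrArg (· (T' y w)) h9) (f x₀)
  have h3 : ∀ x y, g (T x y) =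
      T' (a x) ((c'.hT.cL (f x₀ ∘ₗ a.symm) ∘ₗ (g : End F V) ∘ₗ T x₁) y) := fun x y => by
    have h4 : a.conjAlgEquiv F ((f x₀).smulRight x) = (f x₀ ∘ₗ a.symm).smulRight (a x) :=
      LinearMap.ext fun y => by simp
    simpa [h4, c'.hT.mp_smulRight, hx] using LinearMap.congr_fun (h2 x) (g (T x₁ y))
  refine ⟨a, LinearMap.linearEquivOfInjective (c'.hT.cL (f x₀ ∘ₗ a.symm) ∘ₗ (g : End F V) ∘ₗ T x₁)
    ((injective_iff_map_eq_zero _).2 fun y hy => ?_) (c.hW.trans c'.hW.symm), h3⟩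
  have := h3 x₁ y
  rw [hy] at this
  simpa [c.hT.eq_zero_iff, hx0] using this

end C3

end Cfsg.Lib.Class.Tn
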