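import Cfsg.Agent.Class.Tens3.Loc

/-!
Linear algebra for tensor decompositions with a factor of dimension three.
-/

set_option autoImplicit false

namespace Cfsg.Lib.Class.Tn

open Module Form AO

variable {F U W V : Type*} [Field F] [AddCommGroup U] [Module F U] [AddCommGroup W] [Module F W]
  [AddCommGroup V] [Module F V] {T : U →ₗ[F] W →ₗ[F] V} {f : U →ₗ[F] U →ₗ[F] F}
  {h : W →ₗ[F] W →ₗ[F] F}

theorem sub_one_pow_char (p : ℕ) [Fact p.Prime] [CharP F p] (b : V ≃ₗ[F] V) :
    ((b : End F V) - 1) ^ p = ((b ^ p : V ≃ₗ[F] V) : End F V) - 1 := by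
  rcases subsingleton_or_nontrivial V with hV | hV
  · exact Subsingleton.elim _ _
  have : CharP (End F V) p := charP_of_injective_algebraMap (algebraMap F (End F V)).injective p
  rw [sub_pow_char_of_commute _ (Commute.one_right _), one_pow]
  congr 1
  exact (map_pow LinearEquiv.automorphismGroup.toLinearMapMonoidHom b p).symm

theorem pow_char_of_Rad (p : ℕ) [hp : Fact p.Prime] [CharP F p] (h2 : (2 : F) ≠ 0)
    {B : V →ₗ[F] V →ₗ[F] F} {S : Submodule F V} {q : V ≃ₗ[F] V} (hq : q ∈ Rad B S) : q ^ p = 1 := by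
  have h3 : 3 ≤ p := by
    have := hp.out.two_le
    by_contra hc
    exact h2 (by simpa [show p = 2 by omega] using CharP.cast_eq_zero F p)
  refine LinearEquiv.toLinearMap_injective (sub_eq_zero.1 ?_)
  exact (sub_one_pow_char p q).symm.trans (pow_eq_zero_of_le h3 (Rad_pow_three hq))

namespace Hm

variable [FiniteDimensional F W] (hh : Hm h 1)
include hh

/-- A unipotent isometry of a 3-space fixing an anisotropic vector is trivial. -/
theorem eq_one_of_pow (p : ℕ) [Fact p.Prime] [CharP F p] (h2 : (2 : F) ≠ 0)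
    (hW : finrank F W = 3) {v : W} (hv : h v v ≠ 0) {b : W ≃ₗ[F] W} (hb : b ∈ isomGroup h)
    (e : b v = v) (hp : b ^ p = 1) : b = 1 := by
  set N : End F W := (b : End F W) - 1
  have eN : ∀ y, N y = b y - y := fun _ => rfl
  have h0 : N ^ p = 0 := by rw [sub_one_pow_char, hp]; exact sub_self _
  suffices H : ∀ w, N (N w) = 0 → N w = 0 by
    have h1 : ∀ k w, (N ^ (k + 1)) w = 0 → N w = 0 := fun k => by
      induction k with
      | zero => simp
      | succ k ih => exact fun w hw => ih w (by
          rw [pow_succ', End.mul_apply]; exact H _ (by simpa [pow_succ'] using hw))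
    exact LinearEquiv.ext fun w => sub_eq_zero.1 (h1 p w (by simp [pow_succ', h0]))
  intro w hw
  by_contra hd
  have h1 : ∀ {d}, N d = 0 → ∀ y, h d (N y) = 0 := fun {d} hd y => by
    rw [eN, map_sub, ← iso hb d y, show b d = d from sub_eq_zero.1 hd, sub_self]
  have hv' := h1 (d := v) (sub_eq_zero.2 e)
  obtain ⟨d', hd'⟩ := hh.exists_eq_one hd
  have h3 : ∀ y, h y (N w) ≠ 0 → N y = 0 := fun y hy => by
    obtain ⟨s, hs⟩ : ∃ s : F, N y = s • N w := by
      by_contra! hc
      obtain ⟨u, h4, h5⟩ := hh.exists_orth_ne hd hc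
      have h6 : LinearIndependent F ![N w, N y, v, d'] := by
        rw [Fintype.linearIndependent_iff]
        intro g hg
        simp only [Fin.sum_univ_four, Matrix.cons_val] at hg
        have e3 : g 3 = 0 := by
          simpa [h1 hw, hh.comm (hv' w), hd'] using congrArg (h (N w)) hg
        have e2 : g 2 = 0 := by simpa [hv', hv, e3] using congrArg (h v) hg
        have e1 : g 1 = 0 := by simpa [hh.comm h4, hh.swap_one h5, e3, e2] using congrArg (h u) hg
        have e0 : g 0 = 0 := by simpa [e1, e2, e3, hd] using hg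
        intro i; fin_cases i <;> assumption
      have := h6.fintype_card_le_finrank
      simp [hW] at this
    have h4 := iso hb y y
    rw [show b y = y + s • N w by rw [← hs, eN]; abel] at h4
    simp only [map_add, map_smul, LinearMap.add_apply, LinearMap.smul_apply, h1 hw, smul_eq_mul,
      hh.symm (N w) y] at h4
    have : 2 * s * h y (N w) = 0 := by linear_combination h4
    rw [hs, show s = 0 by simpa [h2, hy] using this, zero_smul]
  have h4 := h3 d' (by simp [hh.swap_one hd'])
  by_cases h5 : h w (N w) = 0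
  · exact hd (by simpa [h4] using h3 (w + d') (by simp [h5, hh.swap_one hd']))
  · exact hd (h3 w h5)

theorem exists_perp_norm [Finite F] (h2 : (2 : F) ≠ 0) (hW : 3 ≤ finrank F W) {v : W}
    (hv : h v v ≠ 0) : ∃ v', h v v' = 0 ∧ h v' v' = h v v := by
  obtain ⟨r, -, e, -⟩ := hh.exists_refl hv
  obtain ⟨y, -, hy0, hy⟩ := exists_iso_mem (h ∘ₗ (r : End F W)) (S := ⊤) (by rwa [finrank_top])
  simp only [LinearMap.comp_apply, LinearEquiv.coe_coe, e, map_sub, map_smul, LinearMap.sub_apply,
    LinearMap.smul_apply, smul_eq_mul] at hy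
  by_cases h1 : h v y = 0
  · obtain ⟨y', hy'⟩ := hh.exists_eq_one hy0
    refine ⟨y' - (h v y' / h v v) • v + ((h v v - h y' y' + h v y' ^ 2 / h v v) / 2) • y,
      by simp [hv, h1], ?_⟩
    simp only [map_add, map_sub, map_smul, LinearMap.add_apply, LinearMap.sub_apply,
      LinearMap.smul_apply, smul_eq_mul, h1, hh.comm h1, hy', hh.swap_one hy', hh.symm y' v,
      show h y y = 0 by simpa [h1] using hy]
    field_simp
    ring
  · refine ⟨(h v v / h v y) • y - v, by simp [h1], ?_⟩
    simp only [map_sub, map_smul, LinearMap.sub_apply, LinearMap.smul_apply, smul_eq_mul,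
      hh.symm y v]
    field_simp at hy ⊢
    linear_combination hy

/-- The root elements generate the full matrix algebra. -/
theorem smulRight_mem [Finite F] (h2 : (2 : F) ≠ 0) (hW : 3 ≤ finrank F W)
    (S : Subalgebra F (End F W)) (hS : ∀ x, h x x = 0 → ∀ a ∈ Rad h (Submodule.span F {x}),
      (a : End F W) ∈ S) (ξ : Dual F W) (x : W) : ξ.smulRight x ∈ S := by
  have hO := hh.spanOpp_of_three h2 hW
  have h1 : ∀ x, h x x = 0 → (h x).smulRight x ∈ S := fun x hx => by
    obtain ⟨d, h3, h4⟩ := hh.exists_aniso h2 [x] (by simp; omega)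
    have h5 := h3 x (by simp)
    obtain ⟨a, ha, s, -, e⟩ := hh.exists_eich hx h5
    have h6 := S.sub_mem (hS x hx a ha) S.one_mem
    convert S.smul_mem (S.mul_mem h6 h6) (-(h d d)⁻¹) using 1
    ext y
    simp [e, hx, h5, hh.comm h5, smul_smul, h4, mul_left_comm]
  obtain ⟨y, hy⟩ := hh.exists_eq_dual ξ
  obtain rfl : h y = ξ := LinearMap.ext hy
  obtain ⟨p, -, hp0, hp⟩ := exists_iso_mem h (S := ⊤) (by rwa [finrank_top])
  have h3 := hO p hp0 hp (S.toSubmodule.comap (LinearMap.smulRightₗ (h y))) fun z hz hzp => by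
    have h4 := hO z (fun h0 => by simp [h0] at hzp) hz
      (S.toSubmodule.comap (LinearMap.smulRightₗ.flip z ∘ₗ h)) fun w hw hwz => by
        change (h w).smulRight z ∈ S
        convert S.smul_mem (S.mul_mem (h1 z hz) (h1 w hw)) (h z w)⁻¹ using 1
        ext u
        simp [smul_smul, hh.ne_comm hwz, mul_comm]
    exact (h4 ▸ Submodule.mem_top : y ∈ S.toSubmodule.comap (LinearMap.smulRightₗ.flip z ∘ₗ h))
  exact (h3 ▸ Submodule.mem_top : x ∈ S.toSubmodule.comap (LinearMap.smulRightₗ (h y)))

end Hm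

theorem finrank_ker_add (h2 : (2 : F) ≠ 0) [FiniteDimensional F W] {b : End F W}
    (hb : ∀ y, b (b y) = y) :
    finrank F (LinearMap.ker (b - 1)) + finrank F (LinearMap.ker (b + 1)) = finrank F W := by
  refine Submodule.finrank_add_eq_of_isCompl ⟨Submodule.disjoint_def.2 fun y h1 h3 => ?_,
    Submodule.codisjoint_iff_exists_add_eq.2 fun y => ⟨(2⁻¹ : F) • (y + b y), (2⁻¹ : F) • (y - b y),
      by simp [hb, add_comm], by simp [hb], ?_⟩⟩
  · simp only [LinearMap.mem_ker, LinearMap.sub_apply, LinearMap.add_apply, End.one_apply] at h1 h3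
    exact (smul_eq_zero.1 (show (2 : F) • y = 0 by
      linear_combination (norm := module) h3 - h1)).resolve_left h2
  · match_scalars <;> field_simp <;> ring

variable [FiniteDimensional F U] [FiniteDimensional F W]

/-- The fixed space of an involution preserving the decomposition. -/
theorem IsTens.fix_invol (hT : IsTens T) (h2 : (2 : F) ≠ 0) (hU : 3 ≤ finrank F U)
    (hU' : finrank F U ≤ 5) (hW : finrank F W = 3) {z : V ≃ₗ[F] V} (hz : z ∈ tensG T)
    (hz2 : z * z = 1) (hr : finrank F (LinearMap.ker ((z : End F V) - 1)) = finrank F U) :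
    (∃ v, ∀ t, z t = t → ∃ x, t = T x v) ∨
      finrank F U = 3 ∧ ∃ u, ∀ t, z t = t → ∃ y, t = T u y := by
  have := hT.finiteDimensional
  have : Nontrivial U := Module.nontrivial_of_finrank_pos (R := F) (by omega)
  have : Nontrivial W := Module.nontrivial_of_finrank_pos (R := F) (by omega)
  obtain ⟨a, b, rfl⟩ := hT.mem_tensG.1 hz
  obtain ⟨x₀, hx₀⟩ := exists_ne (0 : U)
  obtain ⟨y₀, hy₀⟩ := exists_ne (0 : W)
  obtain ⟨ξ, hξ⟩ := Module.Projective.exists_dual_eq_one F hx₀
  have h0 : ∀ x y, T (a (a x)) (b (b y)) = T x y := fun x y => by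
    simpa using congrArg (· (T x y)) hz2
  have h1 : ∀ y, ξ (a (a x₀)) • b (b y) = y := fun y => by
    simpa [hξ] using congrArg (hT.cL ξ) (h0 x₀ y)
  generalize ξ (a (a x₀)) = l at h1
  have h3 := congrArg LinearMap.det (show l • ((b : End F W) * b) = 1 from LinearMap.ext h1)
  rw [LinearMap.det_smul, map_mul, hW, map_one] at h3
  set ν := l ^ 2 * LinearMap.det (b : End F W)
  have hν : ν * ν = l := by linear_combination l * h3
  have hν0 : ν ≠ 0 := fun h4 => by rw [← hν, h4] at h3; simp at h3
  set a' : End F U := ν⁻¹ • (a : End F U)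
  set b' : End F W := ν • (b : End F W)
  have hb : ∀ y, b' (b' y) = y := fun y => by simp [b', smul_smul, hν, h1]
  have e : (hT.mpE a b : End F V) = hT.mp a' b' := hT.ext fun x y => by
    simp [a', b', smul_smul, hν0]
  have ha : ∀ x, a' (a' x) = x := fun x => hT.injective' hy₀ (by
    have := congrArg (· (T x y₀)) hz2
    simp only [LinearEquiv.mul_apply, ← LinearEquiv.coe_coe (hT.mpE a b), e] at this
    simpa [hb] using this)
  have h4 := finrank_ker_add h2 ha
  have h5 := finrank_ker_add h2 hb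
  have h6 : LinearMap.ker (hT.mp a' b' - 1) =
      Submodule.map₂ T (LinearMap.ker (a' - 1)) (LinearMap.ker (b' - 1)) ⊔
        Submodule.map₂ T (LinearMap.ker (a' + 1)) (LinearMap.ker (b' + 1)) := by
    refine le_antisymm (fun t ht => ?_) (sup_le (Submodule.map₂_le.2 fun x hx y hy => ?_)
      (Submodule.map₂_le.2 fun x hx y hy => ?_))
    · have h7 : hT.mp (1 + a') (1 + b') t + hT.mp (1 - a') (1 - b') t = (2 * 2 : F) • t := by
        simp only [hT.mp_add_left, hT.mp_add_right, hT.mp_sub_left, hT.mp_sub_right, hT.mp_one,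
          LinearMap.add_apply, LinearMap.sub_apply, End.one_apply,
          show hT.mp a' b' t = t from sub_eq_zero.1 ht]
        module
      rw [← Submodule.smul_mem_iff _ (mul_ne_zero h2 h2), ← h7]
      exact Submodule.add_mem_sup
        (hT.mp_mem (A := ⊤) (B := ⊤) (fun x _ => by simp [ha, add_comm])
          (fun x _ => by simp [hb, add_comm]) (hT.span ▸ Submodule.mem_top))
        (hT.mp_mem (A := ⊤) (B := ⊤) (fun x _ => by simp [ha]) (fun x _ => by simp [hb])
          (hT.span ▸ Submodule.mem_top))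
    · simp [show a' x = x from sub_eq_zero.1 hx, show b' y = y from sub_eq_zero.1 hy]
    · simp [show a' x = -x from eq_neg_of_add_eq_zero_left hx,
        show b' y = -y from eq_neg_of_add_eq_zero_left hy]
  have h7 : Submodule.map₂ T (LinearMap.ker (a' - 1)) (LinearMap.ker (b' - 1)) ⊓
      Submodule.map₂ T (LinearMap.ker (a' + 1)) (LinearMap.ker (b' + 1)) = ⊥ := by
    refine eq_bot_iff.2 fun t ⟨h7, h8⟩ => hT.eq_zero_of_cR fun η => ?_
    have h9 := hT.cR_mem h7 η
    have h10 := hT.cR_mem h8 η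
    simp only [LinearMap.mem_ker, LinearMap.sub_apply, LinearMap.add_apply, End.one_apply] at h9 h10
    exact (smul_eq_zero.1 (show (2 : F) • hT.cR η t = 0 by
      linear_combination (norm := module) h10 - h9)).resolve_left h2
  have h8 := Submodule.finrank_sup_add_finrank_inf_eq
    (Submodule.map₂ T (LinearMap.ker (a' - 1)) (LinearMap.ker (b' - 1)))
    (Submodule.map₂ T (LinearMap.ker (a' + 1)) (LinearMap.ker (b' + 1)))
  rw [h7, ← h6, ← e, hr, finrank_bot, hT.finrank_map₂, hT.finrank_map₂] at h8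
  have h9 := fun t (ht : hT.mpE a b t = t) => h6.le (e ▸ sub_eq_zero.2 ht :
    t ∈ LinearMap.ker (hT.mp a' b' - 1))
  clear h6 h7
  generalize LinearMap.ker (a' - 1) = A at *
  generalize LinearMap.ker (a' + 1) = A' at *
  generalize LinearMap.ker (b' - 1) = B at *
  generalize LinearMap.ker (b' + 1) = B' at *
  have k1 : ∀ (A : Submodule F U) (B : Submodule F W), finrank F B = 1 →
      ∃ v, ∀ t ∈ Submodule.map₂ T A B, ∃ x, t = T x v := fun A B hB => by
    obtain ⟨v, -, hv⟩ := finrank_eq_one_iff'.1 hB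
    refine ⟨v, fun t ht => ?_⟩
    obtain ⟨x, -, hx⟩ := hT.mem_map₂_span_right.1 (Submodule.map₂_le_map₂_right (q₂ := .span F {v.1})
      (fun y hy => by
        obtain ⟨s, hs⟩ := hv ⟨y, hy⟩
        exact Submodule.mem_span_singleton.2 ⟨s, congrArg Subtype.val hs⟩) ht)
    exact ⟨x, hx.symm⟩
  have k2 : ∀ (A : Submodule F U) (B : Submodule F W), finrank F A = 1 →
      ∃ u, ∀ t ∈ Submodule.map₂ T A B, ∃ y, t = T u y := fun A B hA => by
    obtain ⟨v, -, hv⟩ := finrank_eq_one_iff'.1 hA
    refine ⟨v, fun t ht => ?_⟩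
    obtain ⟨x, -, hx⟩ := hT.mem_map₂_span_left.1 (Submodule.map₂_le_map₂_left (p₂ := .span F {v.1})
      (fun y hy => by
        obtain ⟨s, hs⟩ := hv ⟨y, hy⟩
        exact Submodule.mem_span_singleton.2 ⟨s, congrArg Subtype.val hs⟩) ht)
    exact ⟨x, hx.symm⟩
  obtain h10 | h10 | h10 | h10 : finrank F B = 0 ∨ finrank F B = 1 ∨ finrank F B' = 1 ∨
    finrank F B' = 0 := by omega
  · obtain rfl := Submodule.finrank_eq_zero.1 h10
    rw [show finrank F B' = 3 by omega, h10] at h8
    exact Or.inr ⟨by omega, (k2 A' B' (by omega)).imp fun u hu t ht => hu t (by simpa using h9 t ht)⟩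
  · rw [show finrank F B' = 2 by omega, h10] at h8
    obtain rfl := Submodule.finrank_eq_zero.1 (show finrank F A' = 0 by omega)
    exact Or.inl ((k1 A B h10).imp fun u hu t ht => hu t (by simpa using h9 t ht))
  · rw [show finrank F B = 2 by omega, h10] at h8
    obtain rfl := Submodule.finrank_eq_zero.1 (show finrank F A = 0 by omega)
    exact Or.inl ((k1 A' B' h10).imp fun u hu t ht => hu t (by simpa using h9 t ht))
  · obtain rfl := Submodule.finrank_eq_zero.1 h10
    rw [show finrank F B = 3 by omega, h10] at h8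
    exact Or.inr ⟨by omega, (k2 A B (by omega)).imp fun u hu t ht => hu t (by simpa using h9 t ht)⟩

end Cfsg.Lib.Class.Tn
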