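import Cfsg.Agent.Class.Tens.Om

/-!
Overgroups of `O ⊗ O` in `Ω`: the local theorem for a first factor of Witt index one.
-/

set_option autoImplicit false

namespace Cfsg.Lib.Class.Tn

open Module Form AO QuadraticMap Orth OMax
open scoped commutatorElement

variable {F U W V : Type*} [Field F] [AddCommGroup U] [Module F U] [AddCommGroup W] [Module F W]
  [AddCommGroup V] [Module F V] {Q : QuadraticForm F V} {X : Subgroup (V ≃ₗ[F] V)}
  {T : U →ₗ[F] W →ₗ[F] V} {f : U →ₗ[F] U →ₗ[F] F} {h : W →ₗ[F] W →ₗ[F] F}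

/-- The form has Witt index at most one. -/
def IdxOne (f : U →ₗ[F] U →ₗ[F] F) : Prop :=
  ∀ p z, p ≠ 0 → f p p = 0 → f z z = 0 → f p z = 0 → ∃ a : F, z = a • p

theorem exists_fix_sub {B : V →ₗ[F] V →ₗ[F] F} {S : Submodule F V} {P : Set (V ≃ₗ[F] V)}
    (hP : ∀ b ∈ P, b ∈ Rad B S) {A A₀ : End F V → Prop}
    (hA : ∀ b ∈ P, ∀ γ, A γ → A (b.conj γ - γ)) (h00 : A₀ 0) {γ : End F V} (h1 : A γ)
    (h2 : ¬ A₀ γ) : ∃ γ, A γ ∧ ¬ A₀ γ ∧ ∀ b ∈ P, A₀ (b.conj γ - γ) := by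
  refine exists_fix (fun i => if i = 0 then ⊥ else if i = 1 then S else if i = 2 then orth B S
    else ⊤) (by simp) (m := 3) (fun i hi => by simp [show i ≠ 0 by omega, show i ≠ 1 by omega,
      show i ≠ 2 by omega]) (P := P) (fun b hb i v hv => ?_) hA h00 h1 h2
  replace hb := hP b hb
  have hb' := (Rad B S).inv_mem hb
  rcases i with _ | _ | _ | i
  · simp only [zero_add, one_ne_zero, ↓reduceIte] at hv ⊢
    exact ⟨by simp [hb.2.1 v hv], by rw [show b.symm v = v from hb'.2.1 v hv]; exact hv⟩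
  · simp only [zero_add, Nat.reduceAdd, OfNat.ofNat_ne_zero, OfNat.ofNat_ne_one, ↓reduceIte,
      one_ne_zero] at hv ⊢
    exact ⟨hb.2.2 v hv, by simpa using Submodule.add_mem _ (Rad_sub_mem hb' v) hv⟩
  · simpa using Rad_sub_mem hb v
  · simp

variable [FiniteDimensional F U] [FiniteDimensional F W] [Finite F]

theorem Ctx.loc_aniso {β : V →ₗ[F] V →ₗ[F] F} (c : Ctx T f 1 h 1 β X) (h2 : (2 : F) ≠ 0)
    (hU : 3 ≤ finrank F U) (hUi : IdxOne f)
    (hW : 4 ≤ finrank F W ∨ 3 ≤ finrank F W ∧ ∃ t : F, t ≠ 0 ∧ t ^ 2 ≠ 1) {x : U} (hx0 : x ≠ 0)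
    (hx : f x x = 0) (hΓ : ∀ γ, c.Gam x γ → γ = 0) {g : V ≃ₗ[F] V} (hg : g ∈ X)
    (hJ : ∀ w, g (T x w) ∈ JL T x) : g ∈ tensG T := by
  have : Nontrivial W := Module.nontrivial_of_finrank_pos (R := F) (by omega)
  obtain ⟨x', hx', hxx⟩ := c.hf.exists_partner hx0 hx
  have hxx' := c.hf.swap_one hxx
  refine c.mem_tensG_of_stab hx0 hx (c.loc_of hx hxx (fun γ hγ => ⟨0, by simp [hΓ γ hγ]⟩)
    fun u e hu hu' he => by_contra fun hne => ?_) (Or.inl ?_) hg hJ
  swap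
  · obtain ⟨d, h1, h3⟩ := c.hf.exists_aniso h2 [x] (by simp; omega)
    exact ⟨d, d, h1 x (by simp), h1 x (by simp), h3⟩
  obtain ⟨p, -, hp0, hp⟩ := exists_iso_mem h (S := ⊤) (by rw [finrank_top]; omega)
  obtain ⟨p', hp', hpp⟩ := c.hh.exists_partner hp0 hp
  have hpp' := c.hh.swap_one hpp
  let π₁ : End F U := 1 - (f x').smulRight x - (f x).smulRight x'
  have e₁ : ∀ y, π₁ y = y - f x' y • x - f x y • x' := fun _ => rfl
  let π := c.hT.mp π₁ 1
  have eπ : ∀ v, π v = v - T x (c.c x' v) - T x' (c.c x v) := fun v => by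
    simp only [π, π₁, c.hT.mp_sub_left, c.hT.mp_smulRight, LinearMap.sub_apply, c.hT.mp_one,
      End.one_apply]; rfl
  have hπ : ∀ u v, c.c u (π v) = c.c (π₁ u) v := fun u v => by
    simp [eπ, e₁, c.c_sub, c.c_smul, c.hf.symm u]; abel
  have k0 : ∀ {q}, q ∈ Rad β (JL T x) → ∀ w, c.c x (q (T x' w) - T x' w) = 0 :=
    fun hq w => by rw [map_sub, c.c_Rad hq, sub_self]
  have kadd : ∀ {q q'}, q ∈ Rad β (JL T x) → q' ∈ Rad β (JL T x) → ∀ w,
      π (q (q' (T x' w))) = π (q (T x' w)) + π (q' (T x' w)) := fun {q q'} hq hq' w => by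
    obtain ⟨j, hj⟩ := (c.mem_Rad_JL.1 hq).2.2 _ (k0 hq' w)
    have := congrArg π hj
    simp only [map_add, map_sub, π, IsTens.mp_apply, e₁, hx, hx', hxx, hxx'] at this
    simp only [one_smul, zero_smul, sub_zero, sub_self, map_zero, LinearMap.zero_apply] at this
    linear_combination (norm := module) this
  have kconj : ∀ (b : W ≃ₗ[F] W) (q : V ≃ₗ[F] V) w,
      π ((c.hT.mpE 1 b * q * (c.hT.mpE 1 b)⁻¹) (T x' w)) =
        c.hT.mpE 1 b (π (q (T x' (b.symm w)))) := fun b q w => by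
    have h3 : (c.hT.mpE 1 b).symm (T x' w) = T x' (b.symm w) := (c.hT.mpE 1 b).injective (by simp)
    have h4 : π * c.hT.mp 1 b = c.hT.mp 1 b * π := by simp only [π, ← c.hT.mp_mul]; simp
    have h5 := LinearMap.congr_fun h4 (q (T x' (b.symm w)))
    rw [LinearEquiv.mul_apply, LinearEquiv.mul_apply, LinearEquiv.coe_inv, h3]
    exact h5
  obtain ⟨q, hq, hR, he⟩ := he
  obtain ⟨_, ⟨q, hq, hR, rfl⟩, h3, h4⟩ := exists_fix_sub (B := β) (S := JL T.flip p)
    (P := {k | ∃ b ∈ Rad h (Submodule.span F {p}), k = c.hT.mpE 1 b})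
    (A := fun γ => ∃ q ∈ X, q ∈ Rad β (JL T x) ∧ γ = π ∘ₗ (q : End F V) ∘ₗ T x' ∘ₗ c.c x)
    (A₀ := fun γ => ∃ y, ∀ w, γ (T x' w) = T y w)
    (by rintro _ ⟨b, hb, rfl⟩; rw [← c.hT.mpE_flip]; exact c.flip.mpE_mem_Rad hb) (by
      rintro _ ⟨b, hb, rfl⟩ _ ⟨q, hq, hR, rfl⟩
      have hb' := c.radR_mem hp hb
      have hR' := Ctx.conj_mem_Rad' (c := c) hR (a := 1) rfl hb'
      refine ⟨_, mul_mem (mul_mem (mul_mem hb' hq) (inv_mem hb')) (inv_mem hq),
        mul_mem hR' (inv_mem hR), LinearMap.ext fun v => ?_⟩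
      have h5 := kadd hR (inv_mem hR) (c.c x v)
      have h6 : c.c x ((c.hT.mpE 1 b).symm v) = b.symm (c.c x v) := by
        rw [c.hT.mpE_symm]; exact c.c_mpE (a := 1) (one_mem _) _ _ _
      rw [LinearEquiv.coe_inv, q.apply_symm_apply, eπ] at h5
      simp only [LinearMap.sub_apply, LinearEquiv.conj_apply_apply, LinearMap.comp_apply,
        LinearEquiv.coe_coe, h6, ← kconj]
      rw [LinearEquiv.mul_apply _ q⁻¹, kadd hR' (inv_mem hR)]
      simp only [TF.c_apply, hx', hxx, one_smul, zero_smul, map_zero, sub_zero, sub_self] at h5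
      linear_combination (norm := module) h5) ⟨0, by simp⟩ ⟨q, hq, hR, rfl⟩ (by
      rintro ⟨y, hy⟩
      refine hne ⟨f u y, LinearMap.ext fun w => ?_⟩
      have := congrArg (c.c u) (hy w)
      simpa [hxx, hπ, e₁, hu, hu', he] using this)
  simp only [LinearMap.comp_apply, LinearEquiv.coe_coe, TF.c_apply, hxx, one_smul] at h3
  have h5 : ∀ u, ∃ a d : F, ∀ w, c.c u (π (q (T x' w))) = a • w + (d * h p w) • p := fun u => by
    have h6 : f x (π₁ u) = 0 := by simp [e₁, hx, hxx]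
    have h7 : f x' (π₁ u) = 0 := by simp [e₁, hx', hxx']
    simp only [hπ]
    refine c.hh.cent_selfadj h2 hW hp0 hp (γ := c.c (π₁ u) ∘ₗ (q : End F V) ∘ₗ T x')
      (fun w w' => ?_) fun b hb => ?_
    · obtain ⟨δ, h8, h9⟩ := Ctx.Eel.exists_gam (c := c) hx hxx h6 h7
        (e := c.c (π₁ u) ∘ₗ (q : End F V) ∘ₗ T x') ⟨q, hq, hR, fun _ => rfl⟩
      have := h9 w w'
      simp only [hΓ δ h8, LinearMap.zero_apply, map_zero] at this
      linear_combination -this
    · obtain ⟨y, hy⟩ := h4 _ ⟨b, hb, rfl⟩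
      refine ⟨f u y, LinearMap.ext fun w => ?_⟩
      have h8 : (c.hT.mpE 1 b).symm (T x' w) = T x' (b.symm w) :=
        (c.hT.mpE 1 b).injective (by simp)
      have h9 := c.c_mpE (a := 1) (one_mem _) b u
      simpa [h8, hxx, show ∀ v, c.c u (c.hT.mpE 1 b v) = _ from h9, hπ] using
        congrArg (c.c u) (hy w)
  obtain ⟨y₁, y₂, h6⟩ : ∃ y₁ y₂, ∀ w, π (q (T x' w)) = T y₁ w + h p w • T y₂ p := by
    refine ⟨c.hT.cR (h p') (π (q (T x' p))), c.hT.cR (h p') (π (q (T x' p'))), fun w =>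
      c.hT.eq_of_cL fun ξ => ?_⟩
    obtain ⟨u, hu⟩ := c.hf.exists_eq_dual ξ
    obtain ⟨a, d, e⟩ := h5 u
    rw [← show f u = ξ from LinearMap.ext hu]
    simp only [TF.c] at e
    simp [← c.hT.apply_cL, e, hp, hp', hpp, hpp', smul_smul, mul_comm]
  obtain ⟨b, hb, hb', s, hs, e⟩ := c.flip.exists_move (c.hh.spanOpp_of_three h2 (by omega))
    hp0 hp (y := p') (fun h0 => by simp [h0] at hpp) hp'
  rw [c.hT.mpE_flip] at hb'
  have hR' := Ctx.conj_mem_Rad' (c := c) hR (a := 1) rfl hb'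
  obtain ⟨δ, h7, h8⟩ := Ctx.exists_comm (c := c) hx hxx hq
    (mul_mem (mul_mem hb' hq) (inv_mem hb')) hR hR'
  have h9 : ∀ {q q'}, q ∈ Rad β (JL T x) → q' ∈ Rad β (JL T x) → ∀ w w',
      β (q (T x' w) - T x' w) (q' (T x' w') - T x' w') = β (π (q (T x' w))) (π (q' (T x' w'))) :=
    fun hq hq' w w' => by
      simp [eπ, c.left, c.right, c.c_Rad hq, c.c_Rad hq', hx, hx', hxx, hxx']; ring
  have h10 : ∀ w, h p (b.symm w) = s * h p' w := fun w => by
    rw [← iso hb, e]; simp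
  have h11 := h8 p p'
  rw [hΓ δ h7, h9 hR' hR, h9 hR hR', kconj, kconj] at h11
  simp only [h6, h10, map_add, map_smul, IsTens.mpE_apply, LinearEquiv.apply_symm_apply, e,
    LinearMap.add_apply, LinearMap.smul_apply, c.tens, hp, hp', hpp, hpp', smul_eq_mul,
    LinearEquiv.coe_one, id, LinearMap.zero_apply, map_zero] at h11
  have h12 : ∀ u, π₁ u = 0 → f u y₂ = 0 := fun u hu => by
    have h13 := congrArg (fun v => h p' (c.c u v)) (h6 p')
    simp only [hπ, hu] at h13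
    simpa [TF.c, hp', hpp, hpp'] using h13.symm
  obtain ⟨a, rfl⟩ := hUi x y₂ hx0 hx (by
    simpa [hs] using (show s * s * f y₂ y₂ = 0 by linear_combination -h11))
    (h12 x (by simp [e₁, hx, hxx']))
  have := h12 x' (by simp [e₁, hx', hxx])
  simp only [map_smul, hxx', smul_eq_mul, mul_one] at this
  exact h3 ⟨y₁, fun w => by simp [h6, this]⟩

omit [FiniteDimensional F U] [FiniteDimensional F W] [Finite F] in
theorem Hm.self_mem_RS {β : V →ₗ[F] V →ₗ[F] F} (hβ : Hm β 1) (z : V) : z ∈ hβ.RS X z :=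
  fun hz => ⟨hz, fun a => ⟨1, one_mem _, 0, fun v => by simp [smul_smul, mul_comm]⟩⟩

omit [FiniteDimensional F U] [FiniteDimensional F W] [Finite F] in
theorem Hm.mem_RS_of_smul {β : V →ₗ[F] V →ₗ[F] F} (hβ : Hm β 1) {z w : V} {s : F} (hs : s ≠ 0)
    (hw : w ∈ hβ.RS X (s • z)) : w ∈ hβ.RS X z := fun hz => by
  obtain ⟨h1, h3⟩ := hw (by simp [hz])
  refine ⟨by simpa [hs] using h1, fun a => ?_⟩
  obtain ⟨k, hk, b, e⟩ := h3 (a / s)
  refine ⟨k, hk, b * s * s, fun v => ?_⟩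
  simp only [e, map_smul, LinearMap.smul_apply, smul_eq_mul, smul_smul]
  match_scalars <;> field_simp

omit [FiniteDimensional F U] [Finite F] in
theorem Hm.idxOne_of_three (hh : Hm h 1) (hW : finrank F W = 3) : IdxOne h := by
  intro p z hp0 hp hz hpz
  by_contra! hc
  obtain ⟨u, h1, h3⟩ := hh.exists_orth_ne hp0 hc
  obtain ⟨p', hpp⟩ := hh.exists_eq_one hp0
  have h4 : LinearIndependent F ![p, z, u, p'] := by
    rw [Fintype.linearIndependent_iff]
    intro g hg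
    simp only [Fin.sum_univ_four, Matrix.cons_val] at hg
    have e3 : g 3 = 0 := by simpa [hp, hpz, h1, hpp] using congrArg (h p) hg
    have e2 : g 2 = 0 := by simpa [hz, hh.comm hpz, h3, e3] using congrArg (h z) hg
    have e1 : g 1 = 0 := by simpa [hh.comm h1, hh.swap_one h3, e3, e2] using congrArg (h u) hg
    have e0 : g 0 = 0 := by simpa [e1, e2, e3, hp0] using hg
    intro i; fin_cases i <;> assumption
  have := h4.fintype_card_le_finrank
  simp [hW] at this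

omit [FiniteDimensional F U] [FiniteDimensional F W] [Finite F] in
theorem OCtx.mpE_comm_mem (c : OCtx Q T f h 1 X) {a a' : U ≃ₗ[F] U} {b b' : W ≃ₗ[F] W}
    (ha : a ∈ isomGroup f) (ha' : a' ∈ isomGroup f) (hb : b ∈ isomGroup h)
    (hb' : b' ∈ isomGroup h) : c.hT.mpE ⁅a, a'⁆ ⁅b, b'⁆ ∈ X := by
  refine c.ge _ (c.hT.mpE_mem _ _) ?_
  have h1 := c.isoQ _ (c.hT.mpE_mem a b) (c.mpE_isom' ha hb)
  have h3 := c.isoQ _ (c.hT.mpE_mem a' b') (c.mpE_isom' ha' hb')
  have h4 := mem_Om.2 (Subgroup.commutator_mem_commutator (Subgroup.mem_top ⟨_, h1⟩)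
    (Subgroup.mem_top ⟨_, h3⟩))
  convert h4 using 1
  simp only [commutatorElement_def, c.hT.mpE_mul, ← c.hT.mpE_inv]
  rfl

omit [FiniteDimensional F U] [Finite F] in
theorem OCtx.exists_torus (c : OCtx Q T f h 1 X) (h2 : (2 : F) ≠ 0) {p p' : W} (hp : h p p = 0)
    (hp' : h p' p' = 0) (hpp : h p p' = 1) {a : F} (ha : a ≠ 0) : ∃ b ∈ isomGroup h,
      c.hT.mpE 1 b ∈ X ∧ b p = a ^ 2 • p ∧ ∀ z, h p z = 0 → h p' z = 0 → b z = z := by
  have hpp' := c.hh.swap_one hpp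
  have key : ∀ a : F, a ≠ 0 → ∃ r ∈ isomGroup h, r⁻¹ = r ∧ r p = a • p' ∧ r p' = a⁻¹ • p ∧
      ∀ z, h p z = 0 → h p' z = 0 → r z = z := fun a ha => by
    have h1 : h (p - a • p') (p - a • p') = -(2 * a) := by simp [hp, hp', hpp, hpp']; ring
    have h0 : 2 / -(2 * a) = -a⁻¹ := by field_simp
    obtain ⟨r, hr, e, e'⟩ := c.hh.exists_refl (w := p - a • p') (by rw [h1]; simp [h2, ha])
    rw [h1, h0] at e
    refine ⟨r, hr, LinearEquiv.ext e', ?_, ?_, fun z h3 h4 => by simp [e, h3, h4]⟩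
    all_goals
      simp only [e, map_sub, map_smul, LinearMap.sub_apply, LinearMap.smul_apply, hp, hp', hpp,
        hpp', smul_eq_mul]
      match_scalars <;> field_simp <;> ring
  obtain ⟨r, hr, e0, e1, e2, e3⟩ := key 1 one_ne_zero
  obtain ⟨r', hr', f0, f1, f2, f3⟩ := key a ha
  refine ⟨⁅r, r'⁆, (isomGroup h).mul_mem (mul_mem (mul_mem hr hr') (inv_mem hr)) (inv_mem hr'),
    by simpa using c.mpE_comm_mem (one_mem _) (one_mem _) hr hr', ?_, fun z h3 h4 => ?_⟩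
  · simp [commutatorElement_def, e0, f0, e1, e2, f1, smul_smul, pow_two]
  · simp [commutatorElement_def, e0, f0, e3 z h3 h4, f3 z h3 h4]

theorem OCtx.le_of_full (c : OCtx Q T f h 1 X) (hU : 3 ≤ finrank F U) (hW : 3 ≤ finrank F W)
    (H : ∀ x p v, f x x = 0 → x ≠ 0 → h p p = 0 → p ≠ 0 → polarBilin Q (T x p) v = 0 →
      v ∈ c.hm.RS X (T x p)) : Om Q ≤ X := by
  have := c.hT.finiteDimensional
  have H2 : ∀ x p, f x x = 0 → x ≠ 0 → h p p = 0 → p ≠ 0 →
      Full (X.subgroupOf (O Q)) ⊤ (T x p) := fun x p hx hx0 hp hp0 => full_of _ fun hz w _ hw => by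
    have hz' : polarBilin Q (T x p) (T x p) = 0 := by simp [c.tens, hp]
    obtain ⟨k, hk, b, e⟩ := (H x p w hx hx0 hp hp0 hw hz').2 (-1)
    obtain ⟨y, hy⟩ := c.hm.exists_eq_one (c.hT.ne_zero hx0 hp0)
    simp only [c.hf.eps, polarBilin_apply_apply, neg_smul, one_smul, polar_neg_left, one_mul] at e hy
    have hb : b = Q w := by
      have := mem_O.1 (Om_le (c.le hk)) y
      rw [e, Q_sub, Q_add, Q_smul, Q_smul, QuadraticMap.map_neg, hz] at this
      simp only [hy, polar_add_left, polar_smul_left', polar_smul_right', polar_neg_left,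
        polar_neg_right, pc hy, pc hw, polar_comm Q y w] at this
      linear_combination -this
    rw [Subgroup.mem_subgroupOf, show (eich Q (T x p) w).1 = k from LinearEquiv.ext fun v => by
      rw [eich_apply hz hw, e, hb, polar_comm Q v, polar_comm Q v]; module]
    exact hk
  obtain ⟨x, -, hx0, hx⟩ := exists_iso_mem f (S := ⊤) (by rw [finrank_top]; omega)
  obtain ⟨p, -, hp0, hp⟩ := exists_iso_mem h (S := ⊤) (by rw [finrank_top]; omega)
  obtain ⟨x', hx', hxx⟩ := c.hf.exists_partner hx0 hx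
  obtain ⟨p', hp', hpp⟩ := c.hh.exists_partner hp0 hp
  rintro _ ⟨g, hg, rfl⟩
  exact commutator_le_of_two_full c.hm.nondeg c.five (c.sing x p (Or.inl hx))
    (c.sing x' p' (Or.inl hx')) (by rw [← polarBilin_apply_apply, c.tens]; simp [hxx, hpp])
    (H2 x p hx hx0 hp hp0) (H2 x' p' hx' (fun h0 => by simp [h0] at hxx) hp'
      fun h0 => by simp [h0] at hpp) hg

theorem OCtx.le_of_gam (c : OCtx Q T f h 1 X) (h2 : (2 : F) ≠ 0) (hU : 3 ≤ finrank F U)
    (hW : finrank F W = 3) {x : U} (hx0 : x ≠ 0) (hx : f x x = 0) {γ : End F W}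
    (h1 : c.ctx.Gam x γ) (h3 : γ ≠ 0) : Om Q ≤ X := by
  have hS := c.hf.spanOpp_of_three h2 hU
  have hS' := c.hh.spanOpp_of_three h2 hW.ge
  have hle := c.ctx.le
  have hβ : Hm (polarBilin Q) 1 := by simpa using c.hm
  have key : ∀ p, p ≠ 0 → h p p = 0 → ∃ d, h p d = 0 ∧ h d d ≠ 0 ∧ T x d ∈ c.hm.RS X (T x p) := by
    obtain ⟨x', hxx⟩ := c.hf.exists_eq_one hx0
    intro p hp0 hp
    obtain ⟨γ, h1, h3, h4⟩ := exists_fix_Rad (B := h) (S := Submodule.span F {p})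
      (A := c.ctx.Gam x) (A₀ := fun γ => γ = 0)
      (fun b hb γ hγ => (hγ.conj (c.ctx.radR_mem hp hb)).sub hx hγ) rfl h1 h3
    obtain ⟨p', hp', hpp⟩ := c.hh.exists_partner hp0 hp
    obtain ⟨l, z, h5, h6, h7⟩ := c.hh.cent (γ := γ) (by omega) hp hpp fun b hb y => by
      simpa using Hm.apply_of_conj (b := b) (γ := γ) (c := (0 : F)) (by simpa using h4 b hb) y
    have h8 := h1.adj hx hxx p p'
    have h9 := h1.adj hx hxx p' p'
    simp only [h7 p hp, h6, h5, map_add, map_sub, map_smul, LinearMap.add_apply, LinearMap.sub_apply,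
      LinearMap.smul_apply, smul_eq_mul, hpp, hp', c.hh.symm z p'] at h8 h9
    obtain rfl : l = 0 := (mul_eq_zero.1 (by linear_combination h8)).resolve_left h2
    have h10 : h p' z = 0 := (mul_eq_zero.1 (by linear_combination h9)).resolve_left h2
    have e : ∀ y, γ y = h p y • z - h z y • p := fun y => by
      have := h7 (y - h p y • p') (by simp [hpp])
      simp only [map_sub, map_smul, h6, LinearMap.sub_apply, LinearMap.smul_apply, h10,
        c.hh.symm y z] at this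
      linear_combination (norm := module) this
    have hz0 : z ≠ 0 := fun h0 => h3 (LinearMap.ext fun y => by simp [e, h0])
    refine ⟨z, h5, fun h12 => ?_, fun _ => ⟨by simp [c.tens, hx], fun a => ?_⟩⟩
    · obtain ⟨a, ha⟩ := c.hh.idxOne_of_three hW p z hp0 hp h12 h5
      exact c.hh.ne_smul_of hpp hz0 h10 a ha
    obtain ⟨k, hk, e'⟩ := smul_of_sq h2 (A := c.ctx.Gam x) (γ := γ) (fun _ _ => Ctx.Gam.sub hx)
      (fun a => by
        by_cases ha0 : a = 0
        · simpa [ha0] using Ctx.Gam.zero _ _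
        obtain ⟨b, hb, h12, e1, e2⟩ := c.exists_torus h2 hp hp' hpp ha0
        convert h1.conj h12 using 1
        ext y
        obtain ⟨y, rfl⟩ := b.surjective y
        have h13 := iso hb p y
        have h14 := iso hb z y
        rw [e1, map_smul, LinearMap.smul_apply] at h13
        rw [e2 z h5 h10] at h14
        simp only [LinearMap.smul_apply, LinearEquiv.conj_apply_apply,
          LinearEquiv.symm_apply_apply, e, map_sub, map_smul, e1, e2 z h5 h10, ← h13, ← h14]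
        module) a
    refine ⟨k, hk, 0, fun v => ?_⟩
    simp only [e', e, map_smul, LinearMap.smul_apply, c.left, map_sub, smul_eq_mul]
    module
  have H0 : ∀ p, p ≠ 0 → h p p = 0 → ∃ d, h p d = 0 ∧ h d d ≠ 0 ∧
      ∀ y, y ≠ 0 → f y y = 0 → T y d ∈ c.hm.RS X (T y p) := fun p hp0 hp => by
    obtain ⟨d, h4, h5, h6⟩ := key p hp0 hp
    refine ⟨d, h4, h5, fun y hy0 hy => ?_⟩
    obtain ⟨a, -, ha, s, hs, e⟩ := c.ctx.exists_move hS hx0 hx hy0 hy
    have := c.hm.apply_mem_RS hle ha h6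
    simp only [IsTens.mpE_apply, e, map_smul, LinearMap.smul_apply, LinearEquiv.coe_one, id,
      Submodule.smul_mem_iff _ hs] at this
    have h7 := hβ.mem_RS_of_smul (X := X) (z := T y p) (w := T y d) hs (by simpa using this)
    simpa using h7
  have H1 : ∀ y p u, f y y = 0 → y ≠ 0 → h p p = 0 → p ≠ 0 → T u p ∈ c.hm.RS X (T y p) := by
    intro y p u hy hy0 hp hp0
    obtain ⟨d, h4, h5, h7⟩ := H0 p hp0 hp
    refine c.flip.mem_RS_of_opp hS hy0 hy (fun y' h8 h9 => ?_) u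
    exact c.hm.centre_mem_RS hle (z' := T y' p) (by simp [c.tens, hp])
      (h7 y' (fun h0 => by simp [h0] at h9) h8) (by simp [c.tens, hp])
      (by simp [c.tens, c.hh.comm h4]) (h7 y hy0 hy) (by simp [c.tens, h4])
      (by simp [c.tens, h9, h5])
  have H2 : ∀ y p w, f y y = 0 → y ≠ 0 → h p p = 0 → p ≠ 0 → T y w ∈ c.hm.RS X (T y p) := by
    intro y p w hy hy0 hp hp0
    obtain ⟨d, h4, h5⟩ := c.hf.exists_aniso h2 [y] (by simp; omega)
    have h6 := h4 y (by simp)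
    exact c.step_eich hle hS' (fun x p u a b c d _ => H1 x p u a b c d) hy hy0 hy hy
      ⟨d, d, h6, h6, h6, h6, h5⟩ hp hp0 w
  refine c.le_of_full hU hW.ge fun y p v hy hy0 hp hp0 hv => ?_
  obtain ⟨y', hy', hyy⟩ := c.hf.exists_partner hy0 hy
  obtain ⟨p', hp', hpp⟩ := c.hh.exists_partner hp0 hp
  have hy0' : y' ≠ 0 := fun h0 => by simp [h0] at hyy
  rw [c.left] at hv
  have h4 : v - T y' (c.c y v) ∈ c.hm.RS X (T y p) :=
    c.ind_orth (x := y) (P := fun v => v ∈ c.hm.RS X (T y p)) (zero_mem _) (fun _ _ => add_mem)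
      (fun u w hu => c.mem_RS_of_opp hS' hp0 hp (fun p₁ h5 h6 => by
        have h7 : p₁ ≠ 0 := fun h0 => by simp [h0] at h6
        exact c.hm.dir_mem_RS hle (z' := T y p₁) (by simp [c.tens, hy]) (H1 y p₁ u hy hy0 h5 h7)
          (by simp [c.tens, hy]) (by simp [c.tens, c.hf.comm hu]) (H1 y p y' hy hy0 hp hp0)
          (by simp [c.tens, hyy, h6]) (H2 y p p₁ hy hy0 hp hp0)) w) (by simp [hyy])
  suffices T y' (c.c y v) ∈ c.hm.RS X (T y p) by simpa using add_mem h4 this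
  exact c.hm.dir_mem_RS hle (z' := T y' p) (by simp [c.tens, hp]) (H2 y' p _ hy' hy0' hp hp0)
    (by simp [c.tens, hp]) (by simp [c.tens, c.hh.comm hv]) (H2 y p p' hy hy0 hp hp0)
    (by simp [c.tens, hpp, c.hf.swap_one hyy]) (H1 y p y' hy hy0 hp hp0)

/-- The local theorem for a first factor of Witt index one and a second factor of dimension 3. -/
theorem OCtx.mem_tensG_of_stab3 (c : OCtx Q T f h 1 X) (h2 : (2 : F) ≠ 0) (hU : 3 ≤ finrank F U)
    (hUi : IdxOne f) (hW : finrank F W = 3) (ht : ∃ t : F, t ≠ 0 ∧ t ^ 2 ≠ 1) (hX : ¬ Om Q ≤ X)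
    {x : U} (hx0 : x ≠ 0) (hx : f x x = 0) {g : V ≃ₗ[F] V} (hg : g ∈ X)
    (hJ : ∀ w, g (T x w) ∈ JL T x) : g ∈ tensG T :=
  c.ctx.loc_aniso h2 hU hUi (Or.inr ⟨hW.ge, ht⟩) hx0 hx
    (fun _ h1 => by_contra fun h3 => hX (c.le_of_gam h2 hU hW hx0 hx h1 h3)) hg hJ

end Cfsg.Lib.Class.Tn
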