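import Cfsg.Agent.Class.Tens3.Glob
import Cfsg.Agent.Class.AO.TensMat

/-!
Maximality of `O₃ ≀ S₂` in `Ω₉` and of `O₃ ⊗ O₄⁻` in `Ω₁₂⁻`.
-/

set_option autoImplicit false

namespace Cfsg.Lib.Class.Tn

open Module Form AO QuadraticMap Orth OMax

section Abstract

variable {F U W V : Type*} [Field F] [AddCommGroup U] [Module F U] [AddCommGroup W] [Module F W]
  [AddCommGroup V] [Module F V] {T : U →ₗ[F] W →ₗ[F] V} {Q : QuadraticForm F V}
  {QA : QuadraticForm F U} {QB : QuadraticForm F W}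
  [FiniteDimensional F U] [FiniteDimensional F W] [FiniteDimensional F V]

theorem octx_of_tens (h : Tens Q T (polarBilin QA) (polarBilin QB)) (h2 : (2 : F) ≠ 0)
    (h5 : 5 ≤ finrank F V) {X : Subgroup (O Q)} (hX : X ≤ commutator (O Q))
    (hN : ∀ g ∈ commutator (O Q), g.1 ∈ tensG T → g ∈ X) :
    OCtx Q T (polarBilin QA) (polarBilin QB) 1 (X.map (O Q).subtype) where
  hT := h.isTens
  hf := hm_of_symm h2 h.ndf (polar_comm QA)
  hh := hm_of_symm h2 h.ndg (polar_comm QB)
  tens := h.polar_eq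
  five := h5
  sing x y H := (mul_eq_zero.1 (by
    rw [← polar_self', h.polar_eq]; exact mul_eq_zero.2 H)).resolve_left h2
  isoQ m _ hm := mem_O.2 fun v => mul_left_cancel₀ h2 (by
    rw [← polar_self', ← polar_self']; exact hm v v)
  le := Subgroup.map_mono hX
  ge := by
    rintro _ h3 ⟨g, hg, rfl⟩
    exact ⟨g, hN g hg h3, rfl⟩

theorem maxOm_swapG [Finite F] (h : Tens Q T (polarBilin QA) (polarBilin QB)) (h2 : (2 : F) ≠ 0)
    (hU : 3 ≤ finrank F U) (hi : IdxOne (polarBilin QA)) (hW : finrank F W = 3)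
    (hq : 5 ≤ Nat.card F) : MaxOm Q (swapG T) := by
  have hn : 9 ≤ finrank F V := by rw [h.dim, hW]; omega
  have hQ : (polarBilin Q).Nondegenerate :=
    (octx_of_tens h h2 (by omega) le_rfl fun _ hg _ => hg).hm.nondeg
  refine ⟨?_, fun X hX hN hX' g hg => C3.le_swapG ⟨octx_of_tens h h2 (by omega) hX
    fun g hg h3 => hN g hg (Or.inl h3), h2, hU, hi, hW, hq, fun h3 => hX' fun k hk => ?_⟩
      ⟨g, hg, rfl⟩⟩
  · obtain ⟨⟨x, y, h3, h4⟩, w, h5, h6, h7⟩ := h.exists_singular h2 hU hW.ge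
    obtain ⟨g, hg, e⟩ := exists_Om_apply_eq hQ (by omega) h3 h5 h4 h6
    refine ⟨g, hg, ?_⟩
    rintro (⟨a, b, H⟩ | ⟨a, b, H⟩) <;> exact h7 _ _ (e ▸ H x y)
  · exact (Subgroup.mem_map_iff_mem (O Q).subtype_injective).1 (h3 (mem_Om.2 hk))

omit [FiniteDimensional F U] in
theorem idxOne_of_not_isPlus (h2 : (2 : F) ≠ 0) (hU : finrank F U = 4) (hp : ¬ Known.IsPlus QA) :
    IdxOne (polarBilin QA) := fun p z hp0 h3 h4 h5 => by
  by_contra! hc
  refine hp ⟨Submodule.span F {p, z}, fun v hv => ?_, ?_⟩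
  · obtain ⟨a, b, rfl⟩ := Submodule.mem_span_pair.1 hv
    refine (mul_eq_zero.1 ?_).resolve_left h2
    simp only [polarBilin_apply_apply] at h3 h4 h5
    rw [← polar_self']
    simp only [polar_add_left, polar_add_right, polar_smul_left, polar_smul_right, h3, h4, h5, pc h5,
      smul_zero, add_zero]
  · have := finrank_span_eq_card ((LinearIndependent.pair_iff' hp0).2 fun a ha => hc a ha.symm)
    rw [Matrix.range_cons, Matrix.range_cons, Matrix.range_empty, Set.union_empty,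
      Set.singleton_union] at this
    simp [hU, this]

end Abstract

open Cfsg.Geo Asch Matrix
open scoped MatrixGroups

variable {F : Type*} [Field F] {ι : Type} [Fintype ι] [DecidableEq ι]
  {Q : QuadraticForm F (ι → F)} {k : ℕ} {P : GL ι F}

theorem vec_ptw_two (e : ι ≃ (Fin 2 → Fin k)) (x : Fin 2 → Fin k → F) :
    vec e P (ptw x) = tb (e.trans (finTwoArrowEquiv _)) P (x 0) (x 1) := by
  rw [tb_apply, Asch.vec, Asch.vec]
  congr 1
  ext i
  simp [ptw, ptv]

theorem mem_tensorWreathSubgroup_two_iff_glLin (e : ι ≃ (Fin 2 → Fin k)) (g : GL ι F) :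
    g ∈ tensorWreathSubgroup k 2 e P ↔
      glLin ι F g ∈ swapG (tb (e.trans (finTwoArrowEquiv _)) P) := by
  have hT : IsTens (tb (e.trans (finTwoArrowEquiv _)) P) :=
    isTens_of_span (map₂_tb _ P) (by simp [card_eq_mul (e.trans (finTwoArrowEquiv _))])
  have h1 : ∀ (a : Fin 2 → GL (Fin k) F) x y, glLin ι F (trGL e P (ptGL a))
      (tb (e.trans (finTwoArrowEquiv _)) P x y) =
        tb (e.trans (finTwoArrowEquiv _)) P (glLin _ F (a 0) x) (glLin _ F (a 1) y) := by
    intro a x y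
    have := vec_ptw_two (P := P) e ![x, y]
    simp only [cons_val_zero, cons_val_one] at this
    rw [← this, glLin_apply, coe_trGL, tr_mulVec, coe_ptGL, pt_mulVec_ptw, vec_ptw_two]
    rfl
  have h2 : ∀ (s : Equiv.Perm (Fin 2)) x y, glLin ι F (trGL e P (permGL k F s))
      (tb (e.trans (finTwoArrowEquiv _)) P x y) =
        tb (e.trans (finTwoArrowEquiv _)) P (![x, y] (s.symm 0)) (![x, y] (s.symm 1)) := by
    intro s x y
    have := vec_ptw_two (P := P) e ![x, y]
    simp only [cons_val_zero, cons_val_one] at this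
    rw [← this, glLin_apply, coe_trGL, tr_mulVec, ← vec_ptw_two e fun i => ![x, y] (s.symm i)]
    congr 1
    ext a
    simp only [permGL, permM, mulVec, dotProduct, of_apply, ite_mul, one_mul, zero_mul,
      Finset.sum_ite_eq', Finset.mem_univ, if_true, ptw]
    exact Fintype.prod_equiv s _ _ fun i => by simp
  rw [mem_tensorWreathSubgroup]
  obtain ⟨g, rfl⟩ := (trGL e P).surjective g
  rw [MulEquiv.symm_apply_apply]
  constructor
  · refine fun hg => (Subgroup.closure_le ((swapG _).comap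
      ((glLin ι F).toMonoidHom.comp (trGL e P).toMonoidHom))).2 ?_ hg
    rintro g (⟨a, ha⟩ | ⟨s, hs⟩)
    · obtain rfl : g = ptGL a := Units.ext (Matrix.ext ha)
      exact Or.inl ⟨_, _, h1 a⟩
    · obtain rfl : g = permGL k F s := Units.ext (Matrix.ext hs)
      obtain rfl | rfl : s = 1 ∨ s = Equiv.swap 0 1 := by clear hs; revert s; decide
      · exact Or.inl ⟨1, 1, h2 1⟩
      · exact Or.inr ⟨1, 1, h2 _⟩
  · rintro (⟨a, b, H⟩ | ⟨a, b, H⟩) <;> obtain ⟨a, rfl⟩ := (glLin _ F).surjective a <;>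
      obtain ⟨b, rfl⟩ := (glLin _ F).surjective b
    · rw [(trGL e P).injective ((glLin ι F).injective
        (hT.extE fun x y => (H x y).trans (h1 ![a, b] x y).symm))]
      exact ptGL_mem _
    · rw [(trGL e P).injective (a₂ := ptGL ![a, b] * permGL k F (Equiv.swap 0 1))
        ((glLin ι F).injective (hT.extE fun x y => (H x y).trans (by
          rw [map_mul, map_mul, LinearEquiv.mul_apply, h2, h1]; rfl)))]
      exact mul_mem (ptGL_mem _) (permGL_mem _)

variable [Fintype F]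

/-- The subgroup `O₃ ≀ S₂` of `Ω₉`. -/
theorem isMaximalIn_wreath_three (hq : Odd (Fintype.card F)) (h5 : 5 ≤ Fintype.card F)
    {e : ι ≃ (Fin 2 → Fin 3)} {f : (Fin 3 → F) → (Fin 3 → F) → F} (hf : IsSymmetricForm f)
    (h : IsTensorPowerFormStructure id (polar Q) f e P) :
    IsMaximalIn (omegaGL Q) (tensorWreathSubgroup 3 2 e P ⊓ omegaGL Q) := by
  obtain ⟨c, hc, h⟩ := IsTensorPowerFormStructure.ptw (σ := RingEquiv.refl F)
    (preSesq_of_isBilinearForm hf.bilinear) h
  have H : Tens Q (tb (e.trans (finTwoArrowEquiv _)) P) (c • geoBilin hf.bilinear)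
      (geoBilin hf.bilinear) := ⟨fun x y x' y' => by
    have := h ![x, y] ![x', y']
    rw [vec_ptw_two, vec_ptw_two] at this
    simpa [mul_assoc] using this, nondegenerate_smul_bilin
      (geoBilin_nondegenerate _ hf.nondegenerate) hc, geoBilin_nondegenerate _ hf.nondegenerate,
      map₂_tb _ P, by simp [card_eq_mul (e.trans (finTwoArrowEquiv _))]⟩
  have h2 : (2 : F) ≠ 0 := two_ne_zero_of_odd_card hq
  obtain ⟨QA, QB, H, -⟩ := H.exists_sym h2 (fun x y => congrArg (c * ·) (hf.symm x y)) hf.symm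
  exact (maxOm_swapG H h2 (by simp) ((hm_of_symm h2 H.ndf (polar_comm QA)).idxOne_of_three
    (by simp)) (by simp) (by simpa)).isMaximalIn (mem_tensorWreathSubgroup_two_iff_glLin e)

/-- The subgroup `O₃ ⊗ O₄⁻` of `Ω₁₂⁻`. -/
theorem isMaximalIn_tensor_three_four (hq : Odd (Fintype.card F)) (h5 : 5 ≤ Fintype.card F)
    {e : ι ≃ Fin 3 × Fin 4} {f₁ : (Fin 3 → F) → (Fin 3 → F) → F}
    {f₂ : (Fin 4 → F) → (Fin 4 → F) → F} (h₁ : IsSymmetricForm f₁) (h₂ : IsSymmetricForm f₂)
    (hp : ¬ IsPlusTypeOn (fun v => f₂ v v) ⊤) (h : IsTensorFormStructure id (polar Q) f₁ f₂ e P) :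
    IsMaximalIn (omegaGL Q) (tensorProductSubgroup 3 4 e P ⊓ omegaGL Q) := by
  have h2 : (2 : F) ≠ 0 := two_ne_zero_of_odd_card hq
  obtain ⟨QA, QB, H, h'⟩ := exists_tens_sym h2 h₁ h₂ h
  rw [← h', isPlusTypeOn_top_iff] at hp
  refine ((maxOm_swapG H.flip h2 (by simp) (idxOne_of_not_isPlus h2 (by simp) hp) (by simp)
    (by simpa)).congr fun g _ => ?_).isMaximalIn (mem_tensorProductSubgroup_iff_glLin e P)
  rw [← tensG_flip]
  exact ⟨fun h3 => h3.resolve_right fun ⟨a, _⟩ => by simpa using a.finrank_eq, Or.inl⟩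

end Cfsg.Lib.Class.Tn
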